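import Cfsg.Agent.H82.Orth.Covering

/-!
# The covering argument with agreeing lifts

A variant of the covering lemma in which stabilisers of pairs need not be perfect: it suffices that the lifts
used in the derived preimages of the two stabilisers agree modulo that of the base point.
-/

set_option autoImplicit false

open scoped commutatorElement

namespace Cfsg.Agent.H82.Orth

open Cfsg.Agent.H82.Chev

universe u v w

variable {Γ : Type u} [Group Γ] {G : Type v} [Group G] {σ : Γ →* G} {X : Type w} [MulAction G X]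

/-- Kernel elements in the derived preimage of one point stabiliser lie in that of any other. -/
theorem ker_mem_dpre_of_trans (hs : Function.Surjective σ) (hc : σ.ker ≤ Subgroup.center Γ) {v₀ u : X}
    (h : ∃ g : G, g • v₀ = u) {z : Γ} (hz : z ∈ σ.ker) (hzu : z ∈ dpre σ (MulAction.stabilizer G u)) :
    z ∈ dpre σ (MulAction.stabilizer G v₀) := by
  obtain ⟨g, rfl⟩ := h
  obtain ⟨x, rfl⟩ := hs g
  have := conj_mem_dpre (P' := MulAction.stabilizer G v₀) x⁻¹ (fun p hp => by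
    rw [MulAction.mem_stabilizer_iff] at hp ⊢
    rw [map_inv, inv_inv, mul_smul, mul_smul, hp, inv_smul_smul]) hzu
  rwa [Subgroup.mem_center_iff.1 (hc hz) x⁻¹, mul_inv_cancel_right] at this

/-- Two lifts in the derived preimage of one stabiliser agree. -/
theorem lift_congr_of_trans (hs : Function.Surjective σ) (hc : σ.ker ≤ Subgroup.center Γ) {v₀ u : X}
    (h : ∃ g : G, g • v₀ = u) {y y' : Γ} (hy : y ∈ dpre σ (MulAction.stabilizer G u))
    (hy' : y' ∈ dpre σ (MulAction.stabilizer G u)) (e : σ y = σ y') :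
    y⁻¹ * y' ∈ dpre σ (MulAction.stabilizer G v₀) :=
  ker_mem_dpre_of_trans hs hc h (by rw [MonoidHom.mem_ker, map_mul, map_inv, e, inv_mul_cancel])
    (mul_mem (inv_mem hy) hy')

/-- One step between auxiliary points: agreeing lifts in both carry the base point to `v`. -/
def StepA (σ : Γ →* G) (v₀ v : X) (C : X → X → Prop) (a b : X) : Prop :=
  C v a ∧ C v b ∧ ∃ ya ∈ dpre σ (MulAction.stabilizer G a), ∃ yb ∈ dpre σ (MulAction.stabilizer G b),
    σ ya • v₀ = v ∧ σ yb • v₀ = v ∧ ya⁻¹ * yb ∈ dpre σ (MulAction.stabilizer G v₀)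

/-- A step through a group in both stabilisers. -/
theorem stepA_of_mem (hs : Function.Surjective σ) {v₀ v a b : X} {C : X → X → Prop} (ha : C v a) (hb : C v b)
    {P : Subgroup G} (hPa : P ≤ MulAction.stabilizer G a) (hPb : P ≤ MulAction.stabilizer G b) {g : G}
    (hg : g ∈ ⁅P, P⁆) (e : g • v₀ = v) : StepA σ v₀ v C a b := by
  obtain ⟨y, hy, rfl⟩ := exists_mem_dpre hs hg
  exact ⟨ha, hb, y, dpre_mono hPa hy, y, dpre_mono hPb hy, e, e, by rw [inv_mul_cancel]; exact one_mem _⟩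

/-- The covering lemma. -/
theorem ker_le_dpre_of_agree (hs : Function.Surjective σ) (hc : σ.ker ≤ Subgroup.center Γ)
    (hperf : commutator Γ = ⊤) (v₀ : X) (C : X → X → Prop)
    (htrans : ∀ v : X, ∃ g : G, g • v₀ = v)
    (hne : ∀ v, ∃ u, C v u)
    (hmove : ∀ v u, C v u → ∃ g ∈ ⁅MulAction.stabilizer G u, MulAction.stabilizer G u⁆, g • v₀ = v)
    (hsame : ∀ v u, C v u → ∀ g ∈ MulAction.stabilizer G u ⊓ MulAction.stabilizer G v₀,
      ∃ y ∈ dpre σ (MulAction.stabilizer G u), σ y = g ∧ y ∈ dpre σ (MulAction.stabilizer G v₀))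
    (hconn : ∀ v u u', C v u → C v u' → Relation.EqvGen (StepA σ v₀ v C) u u')
    (hequiv : ∀ h : G, h • v₀ = v₀ → ∀ v u, C v u → C (h • v) (h • u))
    (S : Set G) (hgen : Subgroup.closure (S ∪ MulAction.stabilizer G v₀) = ⊤)
    (hS : ∀ x ∈ S, ∃ y : Γ, σ y = x ∧ ∀ v, ∃ u, C v u ∧ C (x • v) u ∧
      ∃ y' ∈ dpre σ (MulAction.stabilizer G u), σ y' = x ∧ y⁻¹ * y' ∈ dpre σ (MulAction.stabilizer G v₀))
    (hstab : ⁅MulAction.stabilizer G v₀, MulAction.stabilizer G v₀⁆ = MulAction.stabilizer G v₀) :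
    σ.ker ≤ dpre σ (MulAction.stabilizer G v₀) := by
  classical
  set K := dpre σ (MulAction.stabilizer G v₀) with hK
  have same : ∀ v u : X, C v u → ∀ g g' : Γ, g ∈ dpre σ (MulAction.stabilizer G u) →
      g' ∈ dpre σ (MulAction.stabilizer G u) → σ g • v₀ = v → σ g' • v₀ = v →
      (g : Γ ⧸ K) = (g' : Γ ⧸ K) := by
    intro v u huv g g' hg hg' e e'
    rw [QuotientGroup.eq]
    have hmem : σ (g⁻¹ * g') ∈ MulAction.stabilizer G u ⊓ MulAction.stabilizer G v₀ := by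
      refine ⟨dpre_le_comap _ (mul_mem (inv_mem hg) hg'), ?_⟩
      show σ (g⁻¹ * g') • v₀ = v₀
      rw [map_mul, map_inv, mul_smul, e', inv_smul_eq_iff, e]
    obtain ⟨l, hl, hle, hlK⟩ := hsame v u huv _ hmem
    have := mul_mem hlK (lift_congr_of_trans hs hc (htrans u) hl (mul_mem (inv_mem hg) hg') hle)
    rwa [mul_inv_cancel_left] at this
  have lift' : ∀ v u, C v u → ∃ g ∈ dpre σ (MulAction.stabilizer G u), σ g • v₀ = v := fun v u hu => by
    obtain ⟨g, hg, e⟩ := hmove v u hu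
    obtain ⟨y, hy, rfl⟩ := exists_mem_dpre hs hg
    exact ⟨y, hy, e⟩
  have ex : ∀ v, ∃ k : Γ ⧸ K, ∀ u, C v u → ∀ g ∈ dpre σ (MulAction.stabilizer G u), σ g • v₀ = v →
      (g : Γ ⧸ K) = k := by
    intro v
    obtain ⟨u₁, hu₁⟩ := hne v
    obtain ⟨g₁, hg₁, e₁⟩ := lift' v u₁ hu₁
    refine ⟨(g₁ : Γ ⧸ K), fun u hu g hg e => ?_⟩
    have key : ∀ a b, Relation.EqvGen (StepA σ v₀ v C) a b → (C v a ↔ C v b) ∧
        ∀ g g' : Γ, C v a → g ∈ dpre σ (MulAction.stabilizer G a) → g' ∈ dpre σ (MulAction.stabilizer G b) →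
          σ g • v₀ = v → σ g' • v₀ = v → (g : Γ ⧸ K) = (g' : Γ ⧸ K) := by
      intro a b hab
      induction hab with
      | rel a b h =>
        obtain ⟨ha, hb, ya, hya, yb, hyb, ea, eb, hag⟩ := h
        refine ⟨iff_of_true ha hb, fun g g' _ hg hg' e e' => ?_⟩
        exact ((same v a ha g ya hg hya e ea).trans (QuotientGroup.eq.2 hag)).trans
          (same v b hb yb g' hyb hg' eb e')
      | refl a => exact ⟨Iff.rfl, fun g g' ha hg hg' e e' => same v a ha g g' hg hg' e e'⟩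
      | symm a b _ ih =>
        exact ⟨ih.1.symm, fun g g' hb hg hg' e e' => (ih.2 g' g (ih.1.2 hb) hg' hg e' e).symm⟩
      | trans a b c _ _ ih1 ih2 =>
        refine ⟨ih1.1.trans ih2.1, fun g g' ha hg hg' e e' => ?_⟩
        obtain ⟨y, hy, ey⟩ := lift' v b (ih1.1.1 ha)
        exact (ih1.2 g y ha hg hy e ey).trans (ih2.2 y g' (ih1.1.1 ha) hy hg' ey e')
    exact (key u u₁ (hconn v u u₁ hu hu₁)).2 g g₁ hu hg hg₁ e e₁
  choose φ hφ using ex
  have hφ₀ : φ v₀ = ((1 : Γ) : Γ ⧸ K) := by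
    obtain ⟨u, hu⟩ := hne v₀
    exact (hφ v₀ u hu 1 (one_mem _) (by rw [map_one, one_smul])).symm
  let M : Subgroup Γ :=
    { carrier := {x | ∀ v, x • φ v = φ (σ x • v)}
      one_mem' := fun v => by rw [one_smul, map_one, one_smul]
      mul_mem' := fun {a b} ha hb v => by rw [mul_smul, hb v, ha, map_mul, mul_smul]
      inv_mem' := fun {a} ha v => by
        rw [inv_smul_eq_iff, ha, map_inv, smul_inv_smul] }
  have hKM : K ≤ M := by
    intro x hx v
    have hxv : σ x • v₀ = v₀ := dpre_le_comap _ hx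
    obtain ⟨u, hu⟩ := hne v
    obtain ⟨g, hg, e⟩ := lift' v u hu
    have hconj : x * g * x⁻¹ ∈ dpre σ (MulAction.stabilizer G (σ x • u)) := conj_mem_dpre x (fun p hp => by
      rw [MulAction.mem_stabilizer_iff] at hp ⊢
      rw [mul_smul, mul_smul, inv_smul_smul, hp]) hg
    rw [← hφ v u hu g hg e, ← hφ (σ x • v) (σ x • u) (hequiv _ hxv v u hu) _ hconj (by
      rw [map_mul, map_mul, map_inv, mul_smul, mul_smul, inv_smul_eq_iff.2 hxv.symm, e])]
    show ((x * g : Γ) : Γ ⧸ K) = _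
    rw [QuotientGroup.eq, show (x * g)⁻¹ * (x * g * x⁻¹) = x⁻¹ by group]
    exact inv_mem hx
  have himg : ∀ y : G, ∃ x ∈ M, σ x = y := by
    have hle : Subgroup.closure (S ∪ MulAction.stabilizer G v₀) ≤ M.map σ := by
      refine (Subgroup.closure_le _).2 ?_
      rintro y (hy | hy)
      · obtain ⟨x, rfl, hu⟩ := hS y hy
        refine ⟨x, fun v => ?_, rfl⟩
        obtain ⟨u, hu1, hu2, x', hx', ex', hxK⟩ := hu v
        obtain ⟨g, hg, e⟩ := lift' v u hu1
        rw [← hφ v u hu1 g hg e, ← hφ _ u hu2 (x' * g) (mul_mem hx' hg) (by rw [map_mul, mul_smul, ex', e])]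
        show ((x * g : Γ) : Γ ⧸ K) = _
        have hz : x⁻¹ * x' ∈ Subgroup.center Γ :=
          hc (by rw [MonoidHom.mem_ker, map_mul, map_inv, ex', inv_mul_cancel])
        rw [QuotientGroup.eq, show (x * g)⁻¹ * (x' * g) = g⁻¹ * ((x⁻¹ * x') * g) by group,
          ← Subgroup.mem_center_iff.1 hz g, inv_mul_cancel_left]
        exact hxK
      · rw [SetLike.mem_coe, ← hstab] at hy
        obtain ⟨x, hx, rfl⟩ := exists_mem_dpre hs hy
        exact ⟨x, hKM hx, rfl⟩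
    intro y
    exact hle (hgen ▸ Subgroup.mem_top y)
  have hM : ∀ x : Γ, x ∈ M := by
    have h := Cfsg.Agent.H82.commutator_le_of_forall_exists_center M fun x => by
      obtain ⟨y, hy, e⟩ := himg (σ x)
      exact ⟨y, hy, hc (by rw [MonoidHom.mem_ker, map_mul, map_inv, e, inv_mul_cancel])⟩
    intro x
    exact Subgroup.commutator_le_self M (h (hperf ▸ Subgroup.mem_top x))
  intro z hz
  have h := hM z v₀
  rw [MonoidHom.mem_ker.1 hz, one_smul, hφ₀] at h
  have h' : ((z : Γ) : Γ ⧸ K) = ((1 : Γ) : Γ ⧸ K) := by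
    conv_rhs => rw [← h]
    show _ = ((z * 1 : Γ) : Γ ⧸ K)
    rw [mul_one]
  rw [QuotientGroup.eq, mul_one] at h'
  exact inv_mem_iff.1 h'

/-- A subgroup containing a point stabiliser and transitive on the points is everything. -/
theorem eq_top_of_stab_of_trans (H : Subgroup G) {v₀ : X}
    (hst : MulAction.stabilizer G v₀ ≤ H) (h : ∀ v : X, ∃ g ∈ H, g • v₀ = v) : H = ⊤ := by
  refine eq_top_iff.2 fun x _ => ?_
  obtain ⟨g, hg, e⟩ := h (x • v₀)
  have hx : g⁻¹ * x ∈ MulAction.stabilizer G v₀ := by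
    rw [MulAction.mem_stabilizer_iff, mul_smul, inv_smul_eq_iff, e]
  have := mul_mem hg (hst hx)
  rwa [mul_inv_cancel_left] at this

/-- A subgroup containing a point stabiliser and an element moving the base point to a neighbour. -/
theorem eq_top_of_stab_of_edge {R : X → X → Prop} (H : Subgroup G) {v₀ : X}
    (hst : MulAction.stabilizer G v₀ ≤ H) {x : G} (hx : x ∈ H) (hxR : R v₀ (x • v₀))
    (hR : ∀ (g : G) a b, R a b → R (g • a) (g • b))
    (htr : ∀ a b, R v₀ a → R v₀ b → ∃ g ∈ MulAction.stabilizer G v₀, g • a = b)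
    (htwo : ∀ v, ∃ u, R v₀ u ∧ R u v) : H = ⊤ := by
  refine eq_top_of_stab_of_trans H hst fun v => ?_
  have one : ∀ a, R v₀ a → ∃ g ∈ H, g • v₀ = a := fun a ha => by
    obtain ⟨g, hg, e⟩ := htr _ a hxR ha
    exact ⟨g * x, mul_mem (hst hg) hx, by rw [mul_smul, e]⟩
  obtain ⟨u, hu, huv⟩ := htwo v
  obtain ⟨g, hg, e⟩ := one u hu
  have h' : R v₀ (g⁻¹ • v) := by
    have := hR g⁻¹ _ _ huv
    rwa [← e, inv_smul_smul] at this
  obtain ⟨k, hk, ek⟩ := one _ h'
  exact ⟨g * k, mul_mem hg hk, by rw [mul_smul, ek, smul_inv_smul]⟩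

/-- The elements of two subgroups with a common lift in both derived preimages. -/
def agreeSub (σ : Γ →* G) (P₁ P₂ : Subgroup G) : Subgroup G where
  carrier := {g | g ∈ P₁ ⊓ P₂ ∧ ∃ y ∈ dpre σ P₁, σ y = g ∧ y ∈ dpre σ P₂}
  one_mem' := ⟨one_mem _, 1, one_mem _, map_one σ, one_mem _⟩
  mul_mem' := fun {g h} ⟨hg, y, hy, ey, hy'⟩ ⟨hh, z, hz, ez, hz'⟩ =>
    ⟨mul_mem hg hh, y * z, mul_mem hy hz, by rw [map_mul, ey, ez], mul_mem hy' hz'⟩
  inv_mem' := fun {g} ⟨hg, y, hy, ey, hy'⟩ =>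
    ⟨inv_mem hg, y⁻¹, inv_mem hy, by rw [map_inv, ey], inv_mem hy'⟩

theorem mem_agreeSub {P₁ P₂ : Subgroup G} {g : G} :
    g ∈ agreeSub σ P₁ P₂ ↔ g ∈ P₁ ⊓ P₂ ∧ ∃ y ∈ dpre σ P₁, σ y = g ∧ y ∈ dpre σ P₂ := Iff.rfl

theorem commutator_le_agreeSub (hs : Function.Surjective σ) (P₁ P₂ : Subgroup G) :
    ⁅P₁ ⊓ P₂, P₁ ⊓ P₂⁆ ≤ agreeSub σ P₁ P₂ := fun g hg => by
  obtain ⟨y, hy, e⟩ := exists_mem_dpre hs hg
  exact mem_agreeSub.2 ⟨Subgroup.commutator_le_self _ hg, y, dpre_mono inf_le_left hy, e, dpre_mono inf_le_right hy⟩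

/-- Elements fixing a third point, with perfect pair stabilisers, have agreeing lifts. -/
theorem mem_agreeSub_of_third (hs : Function.Surjective σ) (hc : σ.ker ≤ Subgroup.center Γ) {u v₀ y : X}
    (htr : ∃ g : G, g • v₀ = y)
    (h1 : ⁅MulAction.stabilizer G u ⊓ MulAction.stabilizer G y, MulAction.stabilizer G u ⊓ MulAction.stabilizer G y⁆ =
      MulAction.stabilizer G u ⊓ MulAction.stabilizer G y)
    (h2 : ⁅MulAction.stabilizer G v₀ ⊓ MulAction.stabilizer G y,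
        MulAction.stabilizer G v₀ ⊓ MulAction.stabilizer G y⁆ =
      MulAction.stabilizer G v₀ ⊓ MulAction.stabilizer G y)
    {g : G} (hgu : g ∈ MulAction.stabilizer G u) (hgv : g ∈ MulAction.stabilizer G v₀)
    (hgy : g ∈ MulAction.stabilizer G y) :
    g ∈ agreeSub σ (MulAction.stabilizer G u) (MulAction.stabilizer G v₀) := by
  obtain ⟨l, hl, el⟩ := exists_mem_dpre hs (σ := σ) (x := g)
    (P := MulAction.stabilizer G u ⊓ MulAction.stabilizer G y) (by rw [h1]; exact ⟨hgu, hgy⟩)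
  obtain ⟨l', hl', el'⟩ := exists_mem_dpre hs (σ := σ) (x := g)
    (P := MulAction.stabilizer G v₀ ⊓ MulAction.stabilizer G y) (by rw [h2]; exact ⟨hgv, hgy⟩)
  refine mem_agreeSub.2 ⟨⟨hgu, hgv⟩, l, dpre_mono inf_le_left hl, el, ?_⟩
  have := mul_mem (dpre_mono inf_le_left hl' : l' ∈ dpre σ (MulAction.stabilizer G v₀))
    (lift_congr_of_trans hs hc htr (dpre_mono inf_le_right hl') (dpre_mono inf_le_right hl) (el'.trans el.symm))
  rwa [mul_inv_cancel_left] at this

end Cfsg.Agent.H82.Orth
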