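import Cfsg.Agent.H82.Orth.PointFix
import Cfsg.Agent.H82.Orth.CoveringAgree

/-!
# Vectors of norm one in characteristic two
-/

set_option autoImplicit false
set_option linter.unusedSectionVars false
set_option linter.unusedSimpArgs false

open QuadraticMap hiding sq
open scoped commutatorElement

namespace Cfsg.Agent.H82.Orth

open Cfsg.Agent.H5

variable {F V : Type*} [Field F] [AddCommGroup V] [Module F V] {Q : QuadraticForm F V}

theorem polar_self_two (h2 : (2 : F) = 0) (x : V) : polar Q x x = 0 := by rw [polar_self', h2, zero_mul]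

theorem add_self_two (h2 : (2 : F) = 0) (x : V) : x + x = 0 := by rw [← two_smul F x, h2, zero_smul]

theorem eq_add_of_add_eq_two (h2 : (2 : F) = 0) {x y z : V} (h : x + y = z) : x = z + y := by
  rw [← h, add_assoc, add_self_two h2, add_zero]

theorem sqrt_unique_two (h2 : (2 : F) = 0) {x y : F} (h : x * x = y * y) : x = y := by
  have : (x - y) * (x - y) = 0 := by linear_combination h + (y * y - x * y) * h2
  exact sub_eq_zero.1 (mul_self_eq_zero.1 this)

theorem linearIndependent_pair_of_notMem {a x : V} (ha : a ≠ 0) (hx : x ∉ Submodule.span F ({a} : Set V)) :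
    LinearIndependent F ![a, x] :=
  (LinearIndependent.pair_iff' ha).2 fun c hc => hx (Submodule.mem_span_singleton.2 ⟨c, hc⟩)

theorem linearIndependent_triple_of_notMem {a b x : V} (hab : LinearIndependent F ![a, b])
    (hx : x ∉ Submodule.span F (Set.range ![a, b])) : LinearIndependent F ![a, b, x] := by
  have h := hab.finSnoc hx
  convert h using 1
  funext i
  fin_cases i <;> rfl

/-- A subgroup fixing given vectors. -/
def fixVecs (Q : QuadraticForm F V) {k : ℕ} (b : Fin k → V) : Subgroup (orth Q) where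
  carrier := {x | ∀ i, (x : V ≃ₗ[F] V) (b i) = b i}
  one_mem' := fun _ => rfl
  mul_mem' := fun {x y} hx hy i => by rw [orth_mul_apply, hy, hx]
  inv_mem' := fun {x} hx i => by
    conv_lhs => rw [← hx i]
    exact orth_inv_apply_apply _ _

variable [Finite F] [FiniteDimensional F V]

theorem ne_zero_of_norm_one {x : V} (h : Q x = 1) : x ≠ 0 := fun h0 => by simp [h0] at h

theorem scale_norm_one (h2 : (2 : F) = 0) {x : V} (hx : Q x ≠ 0) : ∃ t : F, t ≠ 0 ∧ Q (t • x) = 1 := by
  obtain ⟨s, hs⟩ := isSquare_of_two_eq_zero h2 (Q x)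
  have hs0 : s ≠ 0 := fun h => hx (by rw [hs, h, mul_zero])
  exact ⟨s⁻¹, inv_ne_zero hs0, by rw [QuadraticMap.map_smul, smul_eq_mul, hs]; field_simp⟩

/-- A vector of norm one orthogonal to `S` and outside it, unless `S` contains its perp. -/
theorem exists_pt_notMem (h2 : (2 : F) = 0) (hQ : (polarBilin Q).Nondegenerate) (S : Submodule F V)
    (h : ¬ perp Q S ≤ S) : ∃ y : Pt Q, (∀ x ∈ S, polar Q x y.1 = 0) ∧ y.1 ∉ S := by
  obtain ⟨w, hwW, hwS⟩ := SetLike.not_le_iff_exists.1 h
  obtain ⟨w', hw'W, hne⟩ : ∃ w' ∈ perp Q S, polar Q w w' ≠ 0 := by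
    by_contra hall
    push Not at hall
    refine hwS ((perp_perp hQ S).le (mem_perp.2 fun z hz => ?_))
    rw [polar_comm]
    exact hall z hz
  have hw'S : w' ∉ S := fun hS => hne (by rw [polar_comm]; exact mem_perp.1 hwW w' hS)
  have key : ∀ p ∈ perp Q S, p ∉ S → Q p ≠ 0 → ∃ y : Pt Q, (∀ x ∈ S, polar Q x y.1 = 0) ∧ y.1 ∉ S := by
    intro p hp hpS hq
    obtain ⟨t, ht, ht1⟩ := scale_norm_one h2 hq
    refine ⟨⟨t • p, ht1⟩, fun x hx => by rw [polar_smul_right, mem_perp.1 hp x hx, smul_zero], fun hS => hpS ?_⟩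
    have := S.smul_mem t⁻¹ hS
    rwa [smul_smul, inv_mul_cancel₀ ht, one_smul] at this
  by_cases hq : Q w = 0
  swap
  · exact key w hwW hwS hq
  by_cases hq' : Q w' = 0
  swap
  · exact key w' hw'W hw'S hq'
  refine key _ (add_mem hwW hw'W) (fun hS => hne ?_) (by
    rw [QuadraticMap.map_add (⇑Q), hq, hq', zero_add, zero_add]; exact hne)
  have e := mem_perp.1 hwW (w + w') hS
  rwa [polar_add_left, polar_self_two h2, zero_add, polar_comm] at e

/-- Omega maps a family to another one with the same values when some reflection fixes the second. -/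
theorem exists_map_family_even [Finite V] (h2 : (2 : F) = 0) (hQ : (polarBilin Q).Nondegenerate)
    (hn : 5 ≤ Module.finrank F V) {k : ℕ} (a b : Fin k → V) (ha : LinearIndependent F a)
    (hb : LinearIndependent F b) (hq : ∀ i, Q (a i) = Q (b i))
    (hp : ∀ i j, polar Q (a i) (a j) = polar Q (b i) (b j))
    (hk : 2 * k < Module.finrank F V) :
    ∃ g : commutator (orth Q), ∀ i, ((g : orth Q) : V ≃ₗ[F] V) (a i) = b i := by
  obtain ⟨g, hg, hgv⟩ := H4.exists_isom_family hQ a b ha hb hq hp
  set W := perp Q (Submodule.span F (Set.range b)) with hW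
  obtain ⟨w, hwW, hw⟩ : ∃ w ∈ W, Q w ≠ 0 := by
    by_contra hall
    push Not at hall
    have hle : W ≤ perp Q W := fun x hx => mem_perp.2 fun z hz => by
      have h := hall (z + x) (add_mem hz hx)
      rwa [QuadraticMap.map_add (⇑Q), hall z hz, hall x hx, zero_add, zero_add] at h
    rw [hW, perp_perp hQ] at hle
    have h1 := Submodule.finrank_mono hle
    have h3 := finrank_perp_add hQ (Submodule.span F (Set.range b))
    have h4 : Module.finrank F (Submodule.span F (Set.range b)) ≤ k :=
      le_trans (finrank_range_le_card b) (le_of_eq (Fintype.card_fin k))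
    omega
  obtain ⟨k', hk', hmem⟩ := exists_mul_mem_commutator hQ (Or.inr (by omega)) ⟨g, hg⟩ (fixVecs Q b)
    (fun _ => ⟨refl Q w, fun i => refl_apply_of_ortho (by
      rw [polar_comm]; exact mem_perp.1 hwW _ (Submodule.subset_span ⟨i, rfl⟩)), dick_refl hQ hw⟩)
    (fun c hc => absurd (isSquare_of_two_eq_zero h2 c) hc)
  refine ⟨⟨_, hmem⟩, fun i => ?_⟩
  show ((k' * ⟨g, hg⟩ : orth Q) : V ≃ₗ[F] V) (a i) = b i
  rw [orth_mul_apply]
  show (k' : V ≃ₗ[F] V) (g (a i)) = b i
  rw [hgv, hk' i]

/-- Omega is transitive on pairs of distinct orthogonal vectors of norm one fixing the first. -/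
theorem exists_map_pt [Finite V] (h2 : (2 : F) = 0) (hQ : (polarBilin Q).Nondegenerate)
    (hn : 5 ≤ Module.finrank F V) (x y : Pt Q) : ∃ g : commutator (orth Q), g • x = y := by
  obtain ⟨g, hg⟩ := exists_map_family_even h2 hQ hn ![x.1] ![y.1]
    (LinearIndependent.of_subsingleton 0 (ne_zero_of_norm_one x.2))
    (LinearIndependent.of_subsingleton 0 (ne_zero_of_norm_one y.2))
    (fun i => by fin_cases i; simp [x.2, y.2])
    (fun i j => by fin_cases i; fin_cases j; simp [polar_self_two h2]) (by omega)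
  exact ⟨g, Subtype.ext (hg 0)⟩

end Cfsg.Agent.H82.Orth
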