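import Cfsg.Agent.H82.Orth.SpPoint
import Cfsg.Agent.H2.Perfect

/-!
# Central extensions of Omega of minus type in characteristic two and point stabilisers

The kernel of a perfect central extension lies in the derived preimage of the stabiliser of a vector of norm
one. The auxiliary points are orthogonal; the stabiliser of an orthogonal pair need not be perfect, but its
lifts agree because it is generated by elements fixing a point not orthogonal to either.
-/

set_option autoImplicit false
set_option linter.unusedSectionVars false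
set_option linter.unusedSimpArgs false
set_option maxHeartbeats 1000000

open QuadraticMap hiding sq
open scoped commutatorElement Matrix

namespace Cfsg.Agent.H82.Orth

open Cfsg.Agent.H5 Cfsg.Agent.H82.Sp
open Cfsg.Agent.H2 (transv)

universe u w

variable {F : Type u} [Field F] [Fintype F] {m : ℕ} {a b : F}
variable (h2 : (2 : F) = 0) (hab : ∀ z₁ z₂ : F, z₁ ^ 2 + a * z₁ * z₂ + b * z₂ ^ 2 = 0 → z₁ = 0 ∧ z₂ = 0)
  (hm : 3 ≤ m)

/-- A coordinate vector on the first half. -/
def mdv (i : Fin m) : MSp m F := miota (Pi.single (.inl i) 1)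

include h2 hab hm

theorem finrank_msp : Module.finrank F (MSp m F) = 2 * m + 2 := by simp; omega

theorem point_perfect_even : ⁅MulAction.stabilizer (commutator (orth (qMinus m F a b))) (mv₀ m a b),
    MulAction.stabilizer (commutator (orth (qMinus m F a b))) (mv₀ m a b)⁆ =
    MulAction.stabilizer (commutator (orth (qMinus m F a b))) (mv₀ m a b) := by
  have e := (spEquiv (a := a) (b := b) h2 hab (m := m) (by omega)).symm
  have h := Cfsg.Agent.H82.map_commutator_of_surjective (f := e.toMonoidHom) e.surjective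
  rw [H2.commutator_sp_eq_top (Or.inl hm), Subgroup.map_top_of_surjective _ e.surjective] at h
  rw [← Subgroup.map_subtype_commutator, ← h, ← MonoidHom.range_eq_map, Subgroup.range_subtype]

theorem trans_even (x y : Pt (qMinus m F a b)) : ∃ g : commutator (orth (qMinus m F a b)), g • x = y := by
  haveI : Finite (MSp m F) := Pi.finite
  exact exists_map_pt h2 (H5.qMinus_nondegenerate (F := F) m hab) (by rw [finrank_msp h2 hab hm]; omega) x y

theorem stab_perfect_even (v : Pt (qMinus m F a b)) :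
    ⁅MulAction.stabilizer (commutator (orth (qMinus m F a b))) v,
      MulAction.stabilizer (commutator (orth (qMinus m F a b))) v⁆ =
    MulAction.stabilizer (commutator (orth (qMinus m F a b))) v := by
  obtain ⟨g, rfl⟩ := trans_even h2 hab hm (mv₀ m a b) v
  rw [MulAction.stabilizer_smul_eq_stabilizer_map_conj, ← Subgroup.map_commutator,
    point_perfect_even h2 hab hm]

/-- Two vectors orthogonal to the base point agree when their values and hyperbolic coordinates agree. -/
theorem eq_of_mpr_eq {y z : MSp m F} (hy : polar (qMinus m F a b) (mv₀ m a b).1 y = 0)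
    (hz : polar (qMinus m F a b) (mv₀ m a b).1 z = 0) (he : mpr y = mpr z)
    (hq : qMinus m F a b y = qMinus m F a b z) : y = z := by
  have hq' : ∀ (x : Vec m F) (t : F), qMinus m F a b (miota x + t • (mv₀ m a b).1) =
      qMinus m F a b (miota x) + t * t := fun x t => by
    rw [QuadraticMap.map_add (⇑(qMinus m F a b)), QuadraticMap.map_smul, (mv₀ m a b).2, polar_smul_right,
      polar_comm (⇑(qMinus m F a b)) (miota x), polar_miota_mv₀ h2, smul_zero, smul_eq_mul, mul_one, add_zero]
  rw [mperp_decomp h2 hab hy, mperp_decomp h2 hab hz, ← he] at hq ⊢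
  rw [hq', hq', add_right_inj] at hq
  rw [sqrt_unique_two h2 hq]

/-- The plane of two non-orthogonal points has perfect fixer. -/
theorem plane_perfect {p q : Pt (qMinus m F a b)} (h : polar (qMinus m F a b) p.1 q.1 ≠ 0) :
    ⁅MulAction.stabilizer (commutator (orth (qMinus m F a b))) p ⊓
        MulAction.stabilizer (commutator (orth (qMinus m F a b))) q,
      MulAction.stabilizer (commutator (orth (qMinus m F a b))) p ⊓
        MulAction.stabilizer (commutator (orth (qMinus m F a b))) q⁆ =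
    MulAction.stabilizer (commutator (orth (qMinus m F a b))) p ⊓
        MulAction.stabilizer (commutator (orth (qMinus m F a b))) q := by
  haveI : Finite (MSp m F) := Pi.finite
  have hQ := H5.qMinus_nondegenerate (F := F) m hab
  have hreg : ∀ c : Fin 2 → F,
      (∀ j, polar (qMinus m F a b) (∑ i, c i • ![p.1, q.1] i) (![p.1, q.1] j) = 0) → c = 0 := by
    intro c hc
    have e0 := hc 0
    have e1 := hc 1
    simp [Fin.sum_univ_two, polar_add_left, polar_smul_left, polar_self_two h2,
      polar_comm (⇑(qMinus m F a b)) q.1 p.1, h] at e0 e1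
    funext i
    fin_cases i <;> assumption
  obtain ⟨-, hW, hd⟩ := nondeg_span _ hreg
  rw [stabilizer_inf]
  refine fixSub_perfect hQ hW ?_
  have := finrank_perp_add hQ (Submodule.span F (Set.range ![p.1, q.1]))
  have := finrank_msp (a := a) (b := b) h2 hab hm
  omega

variable {Γ : Type w} [Group Γ] {σ : Γ →* commutator (orth (qMinus m F a b))} (hs : Function.Surjective σ)
  (hc : σ.ker ≤ Subgroup.center Γ)

include hs hc

/-- The lifts agree for the standard orthogonal pair. -/
theorem agree_std {u₀ : Pt (qMinus m F a b)}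
    (hu₀ : u₀.1 = (mv₀ m a b).1 + mdv ⟨0, by omega⟩) :
    ∀ g ∈ MulAction.stabilizer (commutator (orth (qMinus m F a b))) u₀ ⊓
        MulAction.stabilizer (commutator (orth (qMinus m F a b))) (mv₀ m a b),
      ∃ y ∈ dpre σ (MulAction.stabilizer (commutator (orth (qMinus m F a b))) u₀),
        σ y = g ∧ y ∈ dpre σ (MulAction.stabilizer (commutator (orth (qMinus m F a b))) (mv₀ m a b)) := by
  classical
  haveI : Finite (MSp m F) := Pi.finite
  have hQ := H5.qMinus_nondegenerate (F := F) m hab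
  set e₀ : Vec m F := Pi.single (.inl ⟨0, by omega⟩) 1 with he₀
  set Θ := spHom (m := m) (a := a) (b := b) h2 hab with hΘ
  have hAc : ⁅(MulAction.stabilizer (commutator (orth (qMinus m F a b))) u₀ ⊓ (MulAction.stabilizer (commutator (orth (qMinus m F a b))) (mv₀ m a b))), (MulAction.stabilizer (commutator (orth (qMinus m F a b))) u₀ ⊓ (MulAction.stabilizer (commutator (orth (qMinus m F a b))) (mv₀ m a b)))⁆ ≤ (agreeSub σ (MulAction.stabilizer (commutator (orth (qMinus m F a b))) u₀) (MulAction.stabilizer (commutator (orth (qMinus m F a b))) (mv₀ m a b))) := commutator_le_agreeSub hs _ _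
  -- the auxiliary point
  obtain ⟨s, hs'⟩ := isSquare_of_two_eq_zero h2 b
  have hs0 : s ≠ 0 := fun h => ne_zero_right_of_anisotropic hab (by rw [hs', h, mul_zero])
  let y₁ : Pt (qMinus m F a b) := ⟨Pi.single (.inr 1) s⁻¹, by
    simp [coe_qMinus, Cfsg.quadFormMinus, Pi.single_apply, hs']
    field_simp⟩
  have hy₁v : polar (qMinus m F a b) (mv₀ m a b).1 y₁.1 = a * s⁻¹ := by
    show polar (qMinus m F a b) (mv₀ m a b).1 (Pi.single (Sum.inr 1) s⁻¹) = a * s⁻¹
    rw [polar_mv₀]
    simp
  have hy₁d : ∀ i : Fin m, polar (qMinus m F a b) (mdv i) y₁.1 = 0 := fun i => by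
    show polar (qMinus m F a b) (mdv i) (Pi.single (Sum.inr 1) s⁻¹) = 0
    rw [polar_qMinus]
    simp [mdv, miota, Pi.single_apply]
  have hne : a * s⁻¹ ≠ 0 := mul_ne_zero (ne_zero_left_of_two h2 hab) (inv_ne_zero hs0)
  have hfixy : ∀ g ∈ (MulAction.stabilizer (commutator (orth (qMinus m F a b))) u₀ ⊓ (MulAction.stabilizer (commutator (orth (qMinus m F a b))) (mv₀ m a b))), g ∈ MulAction.stabilizer (commutator (orth (qMinus m F a b))) y₁ → g ∈ (agreeSub σ (MulAction.stabilizer (commutator (orth (qMinus m F a b))) u₀) (MulAction.stabilizer (commutator (orth (qMinus m F a b))) (mv₀ m a b))) := fun g hg hgy =>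
    mem_agreeSub_of_third hs hc (trans_even h2 hab hm _ y₁)
      (plane_perfect h2 hab hm (p := u₀) (q := y₁) (by
        rw [hu₀, polar_add_left, hy₁v, hy₁d, add_zero]; exact hne))
      (plane_perfect h2 hab hm (p := (mv₀ m a b)) (q := y₁) (by rw [hy₁v]; exact hne)) hg.1 hg.2 hgy
  -- the image in the symplectic group
  let A' : Subgroup (Grp m F) := ((agreeSub σ (MulAction.stabilizer (commutator (orth (qMinus m F a b))) u₀) (MulAction.stabilizer (commutator (orth (qMinus m F a b))) (mv₀ m a b))).comap (MulAction.stabilizer (commutator (orth (qMinus m F a b))) (mv₀ m a b)).subtype).map Θ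
  have hu₀v : polar (qMinus m F a b) (mv₀ m a b).1 u₀.1 = 0 := by
    rw [hu₀, polar_add_right, polar_self_two h2, mdv, polar_miota_mv₀ h2, add_zero]
  have hmu₀ : mpr u₀.1 = e₀ := by
    rw [hu₀]; funext j; simp [mpr, mdv, miota, mv₀, he₀, Pi.single_apply]
  have hPK : ∀ k : (MulAction.stabilizer (commutator (orth (qMinus m F a b))) (mv₀ m a b)), act (Θ k) e₀ = e₀ ↔ (k : (commutator (orth (qMinus m F a b)))) ∈ (MulAction.stabilizer (commutator (orth (qMinus m F a b))) u₀ ⊓ (MulAction.stabilizer (commutator (orth (qMinus m F a b))) (mv₀ m a b))) := fun k => by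
    rw [← hmu₀, hΘ, act_spHom h2 hab k hu₀v]
    constructor
    · intro h
      refine ⟨mem_stabilizer_point.2 (eq_of_mpr_eq h2 hab hm (perp_apply h2 k.2 hu₀v) hu₀v h ?_), k.2⟩
      exact orth_map _ _
    · intro h
      rw [mem_stabilizer_point.1 h.1]
  have hsur := spHom_surjective (a := a) (b := b) h2 hab (m := m) (by omega)
  have hcomm : ⁅Sp.stab e₀, Sp.stab e₀⁆ ≤ A' := by
    refine Subgroup.commutator_le.2 fun g hg h hh => ?_
    obtain ⟨g', rfl⟩ := hsur g
    obtain ⟨h', rfl⟩ := hsur h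
    exact ⟨⁅g', h'⁆, hAc (Subgroup.commutator_mem_commutator ((hPK g').1 hg) ((hPK h').1 hh)),
      map_commutatorElement _ _ _⟩
  have hB : ∀ i j : Fin m, B (Pi.single (.inl i) (1 : F) : Vec m F) (Pi.single (.inl j) 1) = 0 := B_stdVec
  have hsie : ∀ (k : F) (i j : Fin m), i ≠ j →
      sie transv (k • (Pi.single (.inl i) (1 : F) : Vec m F)) (Pi.single (.inl j) 1) ∈ A' := by
    intro k i j hij
    have hne' : ∀ i j : Fin m, polar (qMinus m F a b) (mdv i) (mdv j) = 0 := fun i j => by
      rw [mdv, mdv, polar_miota h2, hB]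
    have hq : ∀ i : Fin m, (qMinus m F a b) (mdv i) = 0 := fun i => by
      simp [coe_qMinus, Cfsg.quadFormMinus, mdv, miota, Pi.single_apply]
    have he : (qMinus m F a b) (k • mdv i : MSp m F) = 0 := by rw [QuadraticMap.map_smul, hq, smul_zero]
    have ha : polar (qMinus m F a b) (k • mdv i : MSp m F) (mdv j) = 0 := by rw [polar_smul_left, hne', smul_zero]
    set x : (commutator (orth (qMinus m F a b))) := ⟨eich (qMinus m F a b) (k • mdv i) (mdv j), eich_mem_commutator hQ (by rw [finrank_msp h2 hab hm]; omega) _ _⟩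
    have hfix : ∀ y : MSp m F, (∀ l : Fin m, polar (qMinus m F a b) (mdv l) y = 0) →
        ((x : orth (qMinus m F a b)) : MSp m F ≃ₗ[F] MSp m F) y = y := fun y h =>
      eich_fix he ha (by rw [polar_smul_left, h, smul_zero]) (h j)
    have hxv : x ∈ (MulAction.stabilizer (commutator (orth (qMinus m F a b))) (mv₀ m a b)) := mem_stabilizer_point.2 (hfix _ fun l => by
      rw [polar_comm, mdv, polar_miota_mv₀ h2])
    have hxu : x ∈ MulAction.stabilizer (commutator (orth (qMinus m F a b))) u₀ := mem_stabilizer_point.2 (hfix _ fun l => by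
      rw [hu₀, polar_add_right, hne', add_zero, polar_comm, mdv, polar_miota_mv₀ h2])
    refine ⟨⟨x, hxv⟩, hfixy x ⟨hxu, hxv⟩ (mem_stabilizer_point.2 (hfix _ hy₁d)), grp_ext fun z => ?_⟩
    have hpre : polar (qMinus m F a b) (mv₀ m a b).1 (miota z) = 0 := polar_miota_mv₀ h2 z
    conv_lhs => rw [show z = mpr (miota (F := F) z) from rfl, hΘ, act_spHom h2 hab _ hpre]
    rw [act_sie_transv (by rw [B_smul_left, hB, mul_zero]) z, B_smul_right,
      eich_apply he ha, hq, zero_mul, zero_smul, sub_zero, polar_smul_left, smul_eq_mul,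
      show polar (qMinus m F a b) (mdv i) (miota z) = B (Pi.single (.inl i) 1) z from polar_miota h2 _ _,
      show polar (qMinus m F a b) (mdv j) (miota z) = B (Pi.single (.inl j) 1) z from polar_miota h2 _ _,
      B_swap z (Pi.single (.inl i) 1), B_swap z (Pi.single (.inl j) 1)]
    funext l
    simp [mpr, mdv, miota, Pi.single_apply]
    linear_combination (-(if l = Sum.inl j then k * B z (Pi.single (Sum.inl i) 1) else 0)) * h2
  -- transvections fixing `e₀`
  have he₀0 : e₀ ≠ 0 := fun h => by simpa [he₀] using congrFun h (.inl ⟨0, by omega⟩)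
  have hiso : ∀ i : Fin m, B e₀ (Pi.single (.inl i) (1 : F) : Vec m F) = 0 := fun i => by
    rw [he₀, hB]
  have hcls : ∀ {x z : Vec m F}, B e₀ x = 0 → B e₀ z = 0 → LinearIndependent F ![e₀, x] →
      LinearIndependent F ![e₀, z] → transv x 1 * (transv z 1)⁻¹ ∈ A' := by
    intro x z hx hz hlx hlz
    obtain ⟨g, hg⟩ := H2.exists_map_tuple ![e₀, z] ![e₀, x] hlz hlx (by
      intro i j
      fin_cases i <;> fin_cases j <;>
        simp [← B_eq, hx, hz, B_eq_zero_symm hx, B_eq_zero_symm hz])
    have hge : g ∈ Sp.stab e₀ := hg 0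
    have := hcomm (Subgroup.commutator_mem_commutator hge (transv_mem_stab hz 1))
    rwa [commutatorElement_def, H2.conj_transv, show (g : Matrix _ _ F).mulVec z = x from hg 1] at this
  let i₁ : Fin m := ⟨1, by omega⟩
  let i₂ : Fin m := ⟨2, by omega⟩
  set e₁ : Vec m F := Pi.single (.inl i₁) 1 with he₁
  set e₂ : Vec m F := Pi.single (.inl i₂) 1 with he₂
  have hl1 : LinearIndependent F ![e₀, e₁] := li_pair he₀0 fun c h => by
    simpa [he₀, he₁, i₁] using congrFun h (.inl i₁)
  have hl2 : LinearIndependent F ![e₀, e₂] := li_pair he₀0 fun c h => by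
    simpa [he₀, he₂, i₂] using congrFun h (.inl i₂)
  have hl12 : LinearIndependent F ![e₀, e₂ + e₁] := li_pair he₀0 fun c h => by
    simpa [he₀, he₁, he₂, i₁, i₂] using congrFun h (.inl i₁)
  have ht1 : transv e₁ 1 ∈ A' := by
    have h12 := hsie 1 i₁ i₂ (by simp [i₁, i₂])
    rw [one_smul, ← he₁, ← he₂, sie] at h12
    have hh := hcls (x := e₂ + e₁) (z := e₂)
      (by rw [B_add_right, hiso, hiso, add_zero]) (hiso i₂) hl12 hl2
    have := mul_mem (inv_mem hh) h12
    rw [inv_mul_cancel_left] at this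
    exact inv_mem_iff.1 this
  have hout : ∀ x, B e₀ x = 0 → LinearIndependent F ![e₀, x] → transv x 1 ∈ A' := fun x hx hlx => by
    have := mul_mem (hcls hx (hiso i₁) hlx hl1) ht1
    rwa [inv_mul_cancel_right] at this
  have hall : ∀ x, B e₀ x = 0 → ∀ c, transv x c ∈ A' := by
    intro x hx c
    obtain ⟨r, hr⟩ := isSquare_of_two_eq_zero h2 c
    rw [hr, show r * r = r * r * 1 by rw [mul_one], ← H2.transv_smul]
    by_cases hl : LinearIndependent F ![e₀, r • x]
    · exact hout _ (by rw [B_smul_right, hx, mul_zero]) hl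
    obtain ⟨k, hk⟩ : ∃ k : F, k • e₀ = r • x := by
      by_contra hall
      push Not at hall
      exact hl (li_pair he₀0 hall)
    rw [← hk]
    have h01 := hsie k ⟨0, by omega⟩ i₁ (by simp [i₁, Fin.ext_iff])
    rw [← he₁, ← he₀, sie] at h01
    have hA1 : transv (e₁ + k • e₀) 1 * (transv e₁ 1)⁻¹ ∈ A' :=
      hcls (by rw [B_add_right, B_smul_right, hiso, show B e₀ e₀ = 0 from hiso _, mul_zero, add_zero]) (hiso i₁)
        (li_pair he₀0 fun c h => by simpa [he₀, he₁, i₁] using congrFun h (.inl i₁)) hl1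
    have := mul_mem (inv_mem hA1) h01
    rw [inv_mul_cancel_left] at this
    exact inv_mem_iff.1 this
  intro g hg
  let k : (MulAction.stabilizer (commutator (orth (qMinus m F a b))) (mv₀ m a b)) := ⟨g, hg.2⟩
  have hgen : Θ k ∈ gen transv ((⊤ : Submodule F (Vec m F)) ⊓ perp e₀) := by
    refine (goodOn (tls_transv (m := m) (F := F)) ⊤ ?_).2 e₀ Submodule.mem_top he₀0 (Θ k) ?_ ((hPK k).2 hg)
    · intro u _ h
      by_contra hu
      obtain ⟨w, hw⟩ := exists_B_ne_zero hu
      exact hw (h w Submodule.mem_top)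
    · have : (⊤ : Subgroup (Grp m F)) ≤ gen transv ⊤ := by
        rw [← H2.closure_transv_eq_top]
        exact Subgroup.closure_mono fun x ⟨w, b, h⟩ => ⟨w, Submodule.mem_top, b, h⟩
      exact this (Subgroup.mem_top _)
  have hle : gen transv ((⊤ : Submodule F (Vec m F)) ⊓ perp e₀) ≤ A' := by
    refine (Subgroup.closure_le _).2 ?_
    rintro _ ⟨x, hx, c, rfl⟩
    exact hall x (Submodule.mem_inf.1 hx).2 c
  obtain ⟨k', hk', e⟩ := hle hgen
  have := spHom_injective (a := a) (b := b) h2 hab (m := m) (by omega) e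
  rw [this] at hk'
  exact (mem_agreeSub.1 hk').2

/-- The lifts agree for every orthogonal pair of distinct points. -/
theorem agree_pair {p q : Pt (qMinus m F a b)} (hpq : polar (qMinus m F a b) p.1 q.1 = 0) (hne : p ≠ q)
    {g : commutator (orth (qMinus m F a b))}
    (hgp : g ∈ MulAction.stabilizer (commutator (orth (qMinus m F a b))) p)
    (hgq : g ∈ MulAction.stabilizer (commutator (orth (qMinus m F a b))) q) :
    ∃ y ∈ dpre σ (MulAction.stabilizer (commutator (orth (qMinus m F a b))) p),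
      σ y = g ∧ y ∈ dpre σ (MulAction.stabilizer (commutator (orth (qMinus m F a b))) q) := by
  classical
  haveI : Finite (MSp m F) := Pi.finite
  have hQ := H5.qMinus_nondegenerate (F := F) m hab
  let u₀ : Pt (qMinus m F a b) := ⟨(mv₀ m a b).1 + mdv ⟨0, by omega⟩, by
    rw [QuadraticMap.map_add (⇑(qMinus m F a b)), (mv₀ m a b).2, mdv, polar_miota_mv₀ h2]
    simp [coe_qMinus, Cfsg.quadFormMinus, miota, Pi.single_apply]⟩
  have hsame : ∀ {x z : Pt (qMinus m F a b)}, x ≠ z → LinearIndependent F ![x.1, z.1] := by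
    intro x z hxz
    refine (LinearIndependent.pair_iff' (ne_zero_of_norm_one x.2)).2 fun c hc => hxz (Subtype.ext ?_)
    have := z.2
    rw [← hc, QuadraticMap.map_smul, x.2, smul_eq_mul, mul_one] at this
    rw [← hc, sqrt_unique_two h2 (this.trans (one_mul (1 : F)).symm), one_smul]
  have hu₀ne : u₀ ≠ mv₀ m a b := fun h => by
    have := congrFun (congrArg Subtype.val h) (.inl (.inl ⟨0, by omega⟩))
    simp [u₀, mv₀, mdv, miota] at this
  have hu₀v : polar (qMinus m F a b) u₀.1 (mv₀ m a b).1 = 0 := by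
    show polar (qMinus m F a b) ((mv₀ m a b).1 + mdv _) _ = 0
    rw [polar_add_left, polar_self_two h2, polar_comm, mdv, polar_miota_mv₀ h2, add_zero]
  obtain ⟨h, hh⟩ := exists_map_family_even h2 hQ (by rw [finrank_msp h2 hab hm]; omega)
    ![u₀.1, (mv₀ m a b).1] ![p.1, q.1] (hsame hu₀ne) (hsame hne)
    (fun i => by fin_cases i <;> simp [u₀.2, (mv₀ m a b).2, p.2, q.2])
    (fun i j => by
      fin_cases i <;> fin_cases j <;>
        simp [polar_self_two h2, hu₀v, hpq, polar_comm (⇑(qMinus m F a b)) (mv₀ m a b).1 u₀.1, polar_comm (⇑(qMinus m F a b)) q.1 p.1])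
    (by rw [finrank_msp h2 hab hm]; omega)
  have hp' : h • u₀ = p := Subtype.ext (hh 0)
  have hq' : h • mv₀ m a b = q := Subtype.ext (hh 1)
  obtain ⟨y, hy, ey, hy'⟩ := agree_std h2 hab hm hs hc (u₀ := u₀) rfl (h⁻¹ * g * h) ⟨MulAction.mem_stabilizer_iff.2 (by
    rw [mul_smul, mul_smul, hp', MulAction.mem_stabilizer_iff.1 hgp, inv_smul_eq_iff,
      hp']), MulAction.mem_stabilizer_iff.2 (by
    rw [mul_smul, mul_smul, hq', MulAction.mem_stabilizer_iff.1 hgq, inv_smul_eq_iff,
      hq'])⟩
  obtain ⟨x, hx⟩ := hs h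
  have conj : ∀ {c c' : Pt (qMinus m F a b)}, h • c = c' → ∀ t ∈ MulAction.stabilizer (commutator (orth (qMinus m F a b))) c,
      σ x * t * (σ x)⁻¹ ∈ MulAction.stabilizer (commutator (orth (qMinus m F a b))) c' := fun {c c'} e t ht => by
    rw [MulAction.mem_stabilizer_iff, hx, mul_smul, mul_smul, ← e, inv_smul_smul, MulAction.mem_stabilizer_iff.1 ht]
  refine ⟨x * y * x⁻¹, conj_mem_dpre x (conj hp') hy, ?_, conj_mem_dpre x (conj hq') hy'⟩
  rw [map_mul, map_mul, map_inv, hx, ey]
  group

/-- The kernel lies in the derived preimage of the point stabiliser. -/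
theorem ker_le_point_even (hperf : commutator Γ = ⊤) :
    σ.ker ≤ dpre σ (MulAction.stabilizer (commutator (orth (qMinus m F a b))) (mv₀ m a b)) := by
  classical
  haveI : Finite (MSp m F) := Pi.finite
  have hQ := H5.qMinus_nondegenerate (F := F) m hab
  have hn := finrank_msp (a := a) (b := b) h2 hab hm
  set v₀ := mv₀ m a b with hv₀
  let C : Pt (qMinus m F a b) → Pt (qMinus m F a b) → Prop := fun v u => polar (qMinus m F a b) v₀.1 u.1 = 0 ∧ polar (qMinus m F a b) v.1 u.1 = 0 ∧
    u.1 ∉ Submodule.span F (Set.range ![v₀.1, v.1])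
  have hsym : ∀ {x z : Pt (qMinus m F a b)}, polar (qMinus m F a b) x.1 z.1 = 0 → polar (qMinus m F a b) z.1 x.1 = 0 := fun {x z} h => by rwa [polar_comm]
  have m0 : ∀ {x z : MSp m F}, x ∈ Submodule.span F (Set.range ![x, z]) := fun {x z} =>
    Submodule.subset_span ⟨0, rfl⟩
  have m1 : ∀ {x z : MSp m F}, z ∈ Submodule.span F (Set.range ![x, z]) := fun {x z} =>
    Submodule.subset_span ⟨1, rfl⟩
  have hle2 : ∀ {x z : MSp m F} {S : Submodule F (MSp m F)}, x ∈ S → z ∈ S →
      Submodule.span F (Set.range ![x, z]) ≤ S := fun {x z S} hx hz => Submodule.span_le.2 (by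
    rintro _ ⟨i, rfl⟩
    fin_cases i <;> assumption)
  have hdim : ∀ {k : ℕ} (f : Fin k → MSp m F),
      Module.finrank F (Submodule.span F (Set.range f)) ≤ k ∧
      Module.finrank F (perp (qMinus m F a b) (Submodule.span F (Set.range f))) +
        Module.finrank F (Submodule.span F (Set.range f)) = 2 * m + 2 := fun {k} f =>
    ⟨le_trans (finrank_range_le_card f) (le_of_eq (Fintype.card_fin k)), by
      rw [finrank_perp_add hQ, hn]⟩
  have pt1 : ∀ {x : Pt (qMinus m F a b)}, LinearIndependent F ![x.1] := fun {x} =>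
    LinearIndependent.of_subsingleton 0 (ne_zero_of_norm_one x.2)
  have li2 : ∀ {x z : Pt (qMinus m F a b)}, z.1 ∉ Submodule.span F ({x.1} : Set (MSp m F)) → LinearIndependent F ![x.1, z.1] :=
    fun {x z} h => linearIndependent_pair_of_notMem (ne_zero_of_norm_one x.2) h
  have hmap3 : ∀ (p q x z : Pt (qMinus m F a b)), LinearIndependent F ![p.1, q.1, x.1] → LinearIndependent F ![p.1, q.1, z.1] →
      polar (qMinus m F a b) p.1 q.1 = 0 → polar (qMinus m F a b) p.1 x.1 = 0 → polar (qMinus m F a b) q.1 x.1 = 0 → polar (qMinus m F a b) p.1 z.1 = 0 →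
      polar (qMinus m F a b) q.1 z.1 = 0 → ∃ g : commutator (orth (qMinus m F a b)), g • p = p ∧ g • q = q ∧ g • x = z := by
    intro p q x z lx lz hpq hpx hqx hpz hqz
    obtain ⟨g, hg⟩ := exists_map_family_even h2 hQ (by omega) ![p.1, q.1, x.1] ![p.1, q.1, z.1] lx lz
      (fun i => by fin_cases i <;> simp [p.2, q.2, x.2, z.2])
      (fun i j => by
        fin_cases i <;> fin_cases j <;>
          simp [polar_self_two h2, hpq, hpx, hqx, hpz, hqz, hsym hpq, hsym hpx, hsym hqx, hsym hpz, hsym hqz])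
      (by omega)
    exact ⟨g, Subtype.ext (hg 0), Subtype.ext (hg 1), Subtype.ext (hg 2)⟩
  have htwoPt : ∀ {x v : Pt (qMinus m F a b)}, x.1 ∉ Submodule.span F (Set.range ![v₀.1, v.1]) →
      v₀.1 ∉ Submodule.span F ({x.1} : Set (MSp m F)) ∧ v.1 ∉ Submodule.span F ({x.1} : Set (MSp m F)) := by
    intro x v hx
    constructor <;> intro h <;> obtain ⟨c, hc⟩ := Submodule.mem_span_singleton.1 h
    · refine hx ?_
      have hc0 : c ≠ 0 := fun h0 => ne_zero_of_norm_one v₀.2 (by rw [← hc, h0, zero_smul])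
      rw [show x.1 = c⁻¹ • v₀.1 by rw [← hc, smul_smul, inv_mul_cancel₀ hc0, one_smul]]
      exact Submodule.smul_mem _ _ m0
    · refine hx ?_
      have hc0 : c ≠ 0 := fun h0 => ne_zero_of_norm_one v.2 (by rw [← hc, h0, zero_smul])
      rw [show x.1 = c⁻¹ • v.1 by rw [← hc, smul_smul, inv_mul_cancel₀ hc0, one_smul]]
      exact Submodule.smul_mem _ _ m1
  have hne : ∀ v, ∃ u, C v u := fun v => by
    obtain ⟨y, hy, hyS⟩ := exists_pt_notMem h2 hQ (Submodule.span F (Set.range ![v₀.1, v.1])) fun hle => by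
      have := Submodule.finrank_mono hle
      have := hdim ![v₀.1, v.1]
      omega
    exact ⟨y, hy _ m0, hy _ m1, hyS⟩
  have hstep : ∀ v x y : Pt (qMinus m F a b), C v x → C v y → polar (qMinus m F a b) x.1 y.1 = 0 →
      v₀.1 ∉ Submodule.span F (Set.range ![x.1, y.1]) → v.1 ∉ Submodule.span F (Set.range ![x.1, y.1]) →
      x.1 ≠ y.1 → StepA σ v₀ v C x y := by
    intro v x y hx hy hxy hv0 hv hne'
    have hl : LinearIndependent F ![x.1, y.1] := by
      refine (LinearIndependent.pair_iff' (ne_zero_of_norm_one x.2)).2 fun c hc => hne' ?_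
      have := y.2
      rw [← hc, QuadraticMap.map_smul, x.2, smul_eq_mul, mul_one] at this
      rw [← hc, sqrt_unique_two h2 (this.trans (one_mul (1 : F)).symm), one_smul]
    obtain ⟨g, gx, gy, gv⟩ := hmap3 x y v₀ v (linearIndependent_triple_of_notMem hl hv0)
      (linearIndependent_triple_of_notMem hl hv) hxy (hsym hx.1) (hsym hy.1) (hsym hx.2.1) (hsym hy.2.1)
    obtain ⟨l, hlx, el, hly⟩ := agree_pair h2 hab hm hs hc hxy (fun h => hne' (congrArg Subtype.val h))
      (MulAction.mem_stabilizer_iff.2 gx) (MulAction.mem_stabilizer_iff.2 gy)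
    exact ⟨hx, hy, l, hlx, l, hly, by rw [el, gv], by rw [el, gv], by rw [inv_mul_cancel]; exact one_mem _⟩
  -- the moving element
  obtain ⟨s, hs'⟩ := isSquare_of_two_eq_zero h2 b
  have hs0 : s ≠ 0 := fun h => ne_zero_right_of_anisotropic hab (by rw [hs', h, mul_zero])
  let z : Pt (qMinus m F a b) := ⟨Pi.single (.inr 1) s⁻¹, by
    simp [coe_qMinus, Cfsg.quadFormMinus, Pi.single_apply, hs']
    field_simp⟩
  set d : MSp m F := mdv ⟨0, by omega⟩ with hd
  have hv₀z : polar (qMinus m F a b) v₀.1 z.1 = a * s⁻¹ := by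
    show polar (qMinus m F a b) v₀.1 (Pi.single (Sum.inr 1) s⁻¹) = a * s⁻¹
    rw [hv₀, polar_mv₀]
    simp
  have hzne : a * s⁻¹ ≠ 0 := mul_ne_zero (ne_zero_left_of_two h2 hab) (inv_ne_zero hs0)
  have hv₀d : polar (qMinus m F a b) v₀.1 d = 0 := polar_miota_mv₀ h2 _
  have hdz : polar (qMinus m F a b) d z.1 = 0 := by
    show polar (qMinus m F a b) d (Pi.single (Sum.inr 1) s⁻¹) = 0
    rw [hd, polar_qMinus]
    simp [mdv, miota, Pi.single_apply]
  have hqd : (qMinus m F a b) d = 0 := by
    simp [coe_qMinus, Cfsg.quadFormMinus, hd, mdv, miota, Pi.single_apply]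
  have hd0 : d ≠ 0 := fun h => by
    have := congrFun h (.inl (.inl ⟨0, by omega⟩))
    simp [hd, mdv, miota] at this
  set x : commutator (orth (qMinus m F a b)) := ⟨eich (qMinus m F a b) d z.1, eich_mem_commutator hQ (by omega) _ _⟩ with hxdef
  have hxapp : ∀ y, ((x : orth (qMinus m F a b)) : MSp m F ≃ₗ[F] MSp m F) y =
      y + polar (qMinus m F a b) d y • z.1 - polar (qMinus m F a b) z.1 y • d - ((qMinus m F a b) z.1 * polar (qMinus m F a b) d y) • d := fun y => eich_apply hqd hdz y
  have hxv : (x • v₀).1 = v₀.1 - (a * s⁻¹) • d := by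
    show ((x : orth (qMinus m F a b)) : MSp m F ≃ₗ[F] MSp m F) v₀.1 = _
    rw [hxapp, polar_comm (⇑(qMinus m F a b)) d, hv₀d, polar_comm (⇑(qMinus m F a b)) z.1, hv₀z]
    simp
  refine ker_le_dpre_of_agree hs hc hperf v₀ C (fun v => trans_even h2 hab hm _ v) hne (fun v u hu => ?_)
    (fun v u hu g hg => ?_) (fun v p q hp hq => ?_) (fun h hh v u hu => ?_) {x} ?_ ?_
    (point_perfect_even h2 hab hm)
  · obtain ⟨h0, h1⟩ := htwoPt hu.2.2
    obtain ⟨g, hg⟩ := exists_map_family_even h2 hQ (by omega) ![u.1, v₀.1] ![u.1, v.1] (li2 h0) (li2 h1)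
      (fun i => by fin_cases i <;> simp [v₀.2, v.2])
      (fun i j => by
        fin_cases i <;> fin_cases j <;>
          simp [polar_self_two h2, hu.1, hu.2.1, hsym hu.1, hsym hu.2.1])
      (by omega)
    exact ⟨g, by rw [stab_perfect_even h2 hab hm]; exact mem_stabilizer_point.2 (hg 0), Subtype.ext (hg 1)⟩
  · exact agree_pair h2 hab hm hs hc (hsym hu.1)
      (fun h => hu.2.2 (h ▸ m0)) hg.1 hg.2
  · set S := Submodule.span F (Set.range ![v₀.1, v.1, p.1, q.1]) with hS
    have s0 : v₀.1 ∈ S := Submodule.subset_span ⟨0, rfl⟩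
    have s1 : v.1 ∈ S := Submodule.subset_span ⟨1, rfl⟩
    have s2 : p.1 ∈ S := Submodule.subset_span ⟨2, rfl⟩
    have s3 : q.1 ∈ S := Submodule.subset_span ⟨3, rfl⟩
    obtain ⟨hd4, hdp⟩ := hdim ![v₀.1, v.1, p.1, q.1]
    rw [← hS] at hd4 hdp
    have out : ∀ (t : Pt (qMinus m F a b)) (y : MSp m F), y ∉ S → t.1 ∈ S → t.1 ∉ Submodule.span F (Set.range ![v₀.1, v.1]) →
        ∀ c : Pt (qMinus m F a b), (c = v₀ ∨ c = v) → c.1 ∉ Submodule.span F (Set.range ![t.1, y]) := by
      intro t y hy ht htn c hc' hmem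
      obtain ⟨k, hk⟩ := (Submodule.mem_span_range_iff_exists_fun F).1 hmem
      simp [Fin.sum_univ_two] at hk
      have hcS : c.1 ∈ S := by rcases hc' with rfl | rfl <;> assumption
      have hk1 : k 1 = 0 := by
        by_contra hne'
        refine hy ((S.smul_mem_iff hne').1 ?_)
        rw [eq_sub_of_add_eq' hk]
        exact sub_mem hcS (S.smul_mem _ ht)
      rw [hk1, zero_smul, add_zero] at hk
      have hk0 : k 0 ≠ 0 := fun h => ne_zero_of_norm_one c.2 (by rw [← hk, h, zero_smul])
      refine htn ((Submodule.smul_mem_iff _ hk0).1 ?_)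
      rw [hk]
      rcases hc' with rfl | rfl <;> [exact m0; exact m1]
    by_cases hW : perp (qMinus m F a b) S ≤ S
    · have hfr := Submodule.finrank_mono hW
      have hS4 : Module.finrank F S = 4 ∧ Module.finrank F (perp (qMinus m F a b) S) = 4 := by omega
      have heq : perp (qMinus m F a b) S = S := Submodule.eq_of_le_of_finrank_le hW (by omega)
      have hli : LinearIndependent F ![v₀.1, v.1, p.1, q.1] :=
        linearIndependent_iff_card_eq_finrank_span.2 (by rw [Fintype.card_fin]; exact hS4.1.symm)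
      have hpq : polar (qMinus m F a b) p.1 q.1 = 0 := mem_perp.1 (heq.symm ▸ s3 : q.1 ∈ perp (qMinus m F a b) S) _ s2
      have hne' : p.1 ≠ q.1 := fun h => absurd (hli.injective (a₁ := 2) (a₂ := 3) h) (by decide)
      have hnot : ∀ i : Fin 4, i = 0 ∨ i = 1 →
          ![v₀.1, v.1, p.1, q.1] i ∉ Submodule.span F (Set.range ![p.1, q.1]) := by
        intro i hi
        refine fun hmem => hli.notMem_span_image (s := ({2, 3} : Set (Fin 4))) (x := i)
          (by rcases hi with rfl | rfl <;> simp) ?_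
        refine Submodule.span_mono ?_ hmem
        rintro _ ⟨j, rfl⟩
        fin_cases j
        · exact ⟨2, by simp, rfl⟩
        · exact ⟨3, by simp, rfl⟩
      exact .rel _ _ (hstep v p q hp hq hpq (hnot 0 (Or.inl rfl)) (hnot 1 (Or.inr rfl)) hne')
    · obtain ⟨y, hy, hyS⟩ := exists_pt_notMem h2 hQ S hW
      have hCy : C v y := ⟨hy _ s0, hy _ s1, fun h => hyS (hle2 s0 s1 h)⟩
      exact .trans _ y _
        (.rel _ _ (hstep v p y hp hCy (hy _ s2) (out p y.1 hyS s2 hp.2.2 v₀ (Or.inl rfl))
          (out p y.1 hyS s2 hp.2.2 v (Or.inr rfl)) (fun h => hyS (h ▸ s2))))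
        (.symm _ _ (.rel _ _ (hstep v q y hq hCy (hy _ s3) (out q y.1 hyS s3 hq.2.2 v₀ (Or.inl rfl))
          (out q y.1 hyS s3 hq.2.2 v (Or.inr rfl)) (fun h => hyS (h ▸ s3)))))
  · have hh' := mem_stabilizer_point.1 (MulAction.mem_stabilizer_iff.2 hh)
    refine ⟨?_, ?_, fun hmem => hu.2.2 ?_⟩
    · show polar (qMinus m F a b) v₀.1 (((h : orth (qMinus m F a b)) : MSp m F ≃ₗ[F] MSp m F) u.1) = 0
      conv_lhs => rw [← hh']
      rw [orth_polar]; exact hu.1
    · show polar (qMinus m F a b) (((h : orth (qMinus m F a b)) : MSp m F ≃ₗ[F] MSp m F) v.1) (((h : orth (qMinus m F a b)) : MSp m F ≃ₗ[F] MSp m F) u.1) = 0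
      rw [orth_polar]; exact hu.2.1
    · obtain ⟨k, hk⟩ := (Submodule.mem_span_range_iff_exists_fun F).1 hmem
      refine (Submodule.mem_span_range_iff_exists_fun F).2 ⟨k, ?_⟩
      refine ((h : orth (qMinus m F a b)) : MSp m F ≃ₗ[F] MSp m F).injective ?_
      simp [Fin.sum_univ_two, hh'] at hk ⊢
      exact hk
  · refine eq_top_of_stab_of_edge (R := fun p q : Pt (qMinus m F a b) => polar (qMinus m F a b) p.1 q.1 = 0 ∧ p ≠ q) _
      (fun g hg => Subgroup.subset_closure (Or.inr hg)) (x := x) (Subgroup.subset_closure (Or.inl rfl))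
      ⟨?_, ?_⟩ (fun g p q h => ⟨?_, fun e => h.2 ((smul_left_cancel_iff g).1 e)⟩) (fun p q hp hq => ?_)
      (fun v => ?_)
    · rw [hxv, polar_sub_right, polar_self_two h2, polar_smul_right, hv₀d, smul_zero, sub_zero]
    · intro e
      have := (congrArg Subtype.val e).trans hxv
      rw [eq_sub_iff_add_eq, add_eq_left, smul_eq_zero] at this
      exact this.elim hzne hd0
    · show polar (qMinus m F a b) (((g : orth (qMinus m F a b)) : MSp m F ≃ₗ[F] MSp m F) p.1) (((g : orth (qMinus m F a b)) : MSp m F ≃ₗ[F] MSp m F) q.1) = 0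
      rw [orth_polar]; exact h.1
    · have hl : ∀ {t : Pt (qMinus m F a b)}, v₀ ≠ t → LinearIndependent F ![v₀.1, t.1] := fun {t} h => by
        refine (LinearIndependent.pair_iff' (ne_zero_of_norm_one v₀.2)).2 fun c hc => h (Subtype.ext ?_)
        have := t.2
        rw [← hc, QuadraticMap.map_smul, v₀.2, smul_eq_mul, mul_one] at this
        rw [← hc, sqrt_unique_two h2 (this.trans (one_mul (1 : F)).symm), one_smul]
      obtain ⟨g, hg⟩ := exists_map_family_even h2 hQ (by omega) ![v₀.1, p.1] ![v₀.1, q.1] (hl hp.2) (hl hq.2)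
        (fun i => by fin_cases i <;> simp [p.2, q.2])
        (fun i j => by
          fin_cases i <;> fin_cases j <;>
            simp [polar_self_two h2, hp.1, hq.1, hsym hp.1, hsym hq.1])
        (by omega)
      exact ⟨g, mem_stabilizer_point.2 (hg 0), Subtype.ext (hg 1)⟩
    · obtain ⟨u, hu⟩ := hne v
      exact ⟨u, ⟨hu.1, fun h => hu.2.2 (h ▸ m0)⟩, hsym hu.2.1, fun h => hu.2.2 (h ▸ m1)⟩
  · rintro _ rfl
    have hxz : x ∈ MulAction.stabilizer (commutator (orth (qMinus m F a b))) z := mem_stabilizer_point.2 (by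
      rw [hxapp, hdz, polar_self_two h2]; simp)
    obtain ⟨y, hy, ey⟩ := exists_mem_dpre hs (σ := σ) (x := x)
      (P := MulAction.stabilizer (commutator (orth (qMinus m F a b))) z) (by rw [stab_perfect_even h2 hab hm]; exact hxz)
    refine ⟨y, ey, fun v => ?_⟩
    set S := Submodule.span F (Set.range ![v₀.1, d, z.1, v.1]) with hS
    have s0 : v₀.1 ∈ S := Submodule.subset_span ⟨0, rfl⟩
    have s1 : d ∈ S := Submodule.subset_span ⟨1, rfl⟩
    have s2 : z.1 ∈ S := Submodule.subset_span ⟨2, rfl⟩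
    have s3 : v.1 ∈ S := Submodule.subset_span ⟨3, rfl⟩
    obtain ⟨hd4, hdp⟩ := hdim ![v₀.1, d, z.1, v.1]
    rw [← hS] at hd4 hdp
    obtain ⟨u, hu, huS⟩ := exists_pt_notMem h2 hQ S fun hle => hzne (by
      rw [← hv₀z]
      have := Submodule.finrank_mono hle
      have heq : perp (qMinus m F a b) S = S := Submodule.eq_of_le_of_finrank_le hle (by omega)
      exact mem_perp.1 (heq.symm ▸ s2 : z.1 ∈ perp (qMinus m F a b) S) _ s0)
    have hxu : ((x : orth (qMinus m F a b)) : MSp m F ≃ₗ[F] MSp m F) u.1 = u.1 := by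
      rw [hxapp, hu _ s1, hu _ s2]; simp
    have hxvS : (x • v).1 ∈ S := by
      show ((x : orth (qMinus m F a b)) : MSp m F ≃ₗ[F] MSp m F) v.1 ∈ S
      rw [hxapp]
      exact sub_mem (sub_mem (add_mem s3 (S.smul_mem _ s2)) (S.smul_mem _ s1)) (S.smul_mem _ s1)
    refine ⟨u, ⟨hu _ s0, hu _ s3, fun h => huS (hle2 s0 s3 h)⟩, ⟨hu _ s0, ?_, fun h => huS (hle2 s0 hxvS h)⟩, ?_⟩
    · show polar (qMinus m F a b) (((x : orth (qMinus m F a b)) : MSp m F ≃ₗ[F] MSp m F) v.1) u.1 = 0
      conv_lhs => rw [← hxu]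
      rw [orth_polar]; exact hu _ s3
    · obtain ⟨l, hl, el, hl'⟩ := agree_pair h2 hab hm hs hc (p := z) (q := u) (hu _ s2)
        (fun h => huS (h ▸ s2)) hxz (mem_stabilizer_point.2 hxu)
      exact ⟨l, hl', el, lift_congr_of_trans hs hc (trans_even h2 hab hm _ z) hy hl (ey.trans el.symm)⟩

end Cfsg.Agent.H82.Orth
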