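import Cfsg.Agent.H82.Orth.Restrict

/-!
# Automorphisms lift to the largest stem extension
-/

set_option autoImplicit false

open scoped commutatorElement

namespace Cfsg.Agent.H82.Orth

universe u v

/-- An automorphism lifts to a stem extension whose kernel bounds that of all others. -/
theorem exists_lift_of_bound {G : Type v} [Group G] {Γ : Type u} [Group Γ] [Finite Γ] {σ : Γ →* G}
    (hσ : Cfsg.IsStemExtension σ) (hperf : commutator Γ = ⊤)
    (hb : ∀ (Δ : Type u) [Group Δ] [Finite Δ] (τ : Δ →* G), Cfsg.IsStemExtension τ →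
      Nat.card τ.ker ≤ Nat.card σ.ker) (φ : G ≃* G) :
    ∃ ψ : Γ →* Γ, ∀ x, σ (ψ x) = φ (σ x) := by
  let K : Subgroup (Γ × Γ) :=
    MonoidHom.eqLocus ((φ.toMonoidHom.comp σ).comp (MonoidHom.fst Γ Γ)) (σ.comp (MonoidHom.snd Γ Γ))
  let p₁ : K →* Γ := (MonoidHom.fst Γ Γ).comp K.subtype
  have hmem : ∀ d : K, φ (σ (d : Γ × Γ).1) = σ (d : Γ × Γ).2 := fun d => d.2
  have hsurj : Function.Surjective p₁ := fun x => by
    obtain ⟨y, hy⟩ := hσ.1 (φ (σ x))
    exact ⟨⟨(x, y), hy.symm⟩, rfl⟩
  have hG : commutator G = ⊤ := by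
    rw [← Cfsg.Agent.H82.map_commutator_of_surjective hσ.1, hperf, Subgroup.map_top_of_surjective _ hσ.1]
  let τ : commutator K →* G := (σ.comp p₁).comp (commutator K).subtype
  have hc : ∀ d : K, σ (p₁ d) = 1 → d ∈ Subgroup.center K := fun d hd => by
    have h2 : σ (d : Γ × Γ).2 = 1 := by rw [← hmem, show σ (d : Γ × Γ).1 = 1 from hd, map_one]
    rw [Subgroup.mem_center_iff]
    exact fun e => Subtype.ext (Prod.ext (Subgroup.mem_center_iff.1 (hσ.2.1 hd) _)
      (Subgroup.mem_center_iff.1 (hσ.2.1 h2) _))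
  have hτs : Function.Surjective τ := fun g => by
    have hg : g ∈ (commutator K).map (σ.comp p₁) := by
      rw [Cfsg.Agent.H82.map_commutator_of_surjective (f := σ.comp p₁) (hσ.1.comp hsurj), hG]
      exact Subgroup.mem_top g
    obtain ⟨x, hx, e⟩ := hg
    exact ⟨⟨x, hx⟩, e⟩
  have hDD : commutator (commutator K) = ⊤ := by
    refine Subgroup.map_injective (Subgroup.subtype_injective _) ?_
    rw [Subgroup.map_subtype_commutator, ← MonoidHom.range_eq_map, Subgroup.range_subtype]
    refine le_antisymm (Subgroup.commutator_le_self _)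
      (Cfsg.Agent.H82.commutator_le_of_forall_exists_center _ fun x => ?_)
    obtain ⟨y, hy⟩ := hτs (σ (p₁ x))
    exact ⟨y, y.2, hc _ (by
      rw [map_mul, map_mul, map_inv, map_inv, show σ (p₁ (y : K)) = σ (p₁ x) from hy, inv_mul_cancel])⟩
  have hτ : Cfsg.IsStemExtension τ := by
    refine ⟨hτs, fun d hd => ?_, by rw [hDD]; exact le_top⟩
    rw [Subgroup.mem_center_iff]
    exact fun e => Subtype.ext (Subgroup.mem_center_iff.1 (hc _ hd) _)
  haveI : Finite K := inferInstance
  let f : commutator K →* Γ := p₁.comp (commutator K).subtype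
  have hf : Function.Surjective f := Cfsg.Agent.H82.surjective_of_stem hσ f (hτs : Function.Surjective (σ.comp f))
  have hcard : Nat.card (commutator K) ≤ Nat.card Γ := by
    have h := hb _ τ hτ
    rw [Subgroup.card_eq_card_quotient_mul_card_subgroup τ.ker,
      Subgroup.card_eq_card_quotient_mul_card_subgroup σ.ker,
      Nat.card_congr (QuotientGroup.quotientKerEquivOfSurjective τ hτ.1).toEquiv,
      Nat.card_congr (QuotientGroup.quotientKerEquivOfSurjective σ hσ.1).toEquiv]
    exact Nat.mul_le_mul_left _ h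
  let e := MulEquiv.ofBijective f (hf.bijective_of_nat_card_le hcard)
  refine ⟨(((MonoidHom.snd Γ Γ).comp K.subtype).comp (commutator K).subtype).comp e.symm.toMonoidHom, fun x => ?_⟩
  have h := hmem ((e.symm x : commutator K) : K)
  rw [show ((((e.symm x : commutator K) : K) : Γ × Γ)).1 = x from e.apply_symm_apply x] at h
  exact h.symm

/-- Two endomorphisms of a perfect extension with the same image agree. -/
theorem hom_ext_of_perfect {G : Type v} [Group G] {Γ : Type u} [Group Γ] {σ : Γ →* G}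
    (hc : σ.ker ≤ Subgroup.center Γ) (hperf : commutator Γ = ⊤) (f g : Γ →* Γ) (h : ∀ x, σ (f x) = σ (g x)) :
    f = g :=
  MonoidHom.ext fun x => Cfsg.Agent.H82.eq_on_commutator_of_comp_eq σ hc f g (MonoidHom.ext h) x
    (hperf.symm ▸ Subgroup.mem_top x)

/-- A lift of an automorphism fixing a perfect subgroup pointwise fixes its derived preimage pointwise. -/
theorem lift_fixes_dpre {G : Type v} [Group G] {Γ : Type u} [Group Γ] {σ : Γ →* G}
    (hs : Function.Surjective σ) (hc : σ.ker ≤ Subgroup.center Γ) {S : Subgroup G} (hS : ⁅S, S⁆ = S)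
    (f : Γ →* Γ) (φ : G → G) (hf : ∀ x, σ (f x) = φ (σ x)) (hφ : ∀ g ∈ S, φ g = g) {x : Γ}
    (hx : x ∈ dpre σ S) : f x = x :=
  Cfsg.Agent.H82.eq_on_commutator_of_comp_eq σ hc (f.comp (dpre σ S).subtype) (dpre σ S).subtype
    (MonoidHom.ext fun y => (hf _).trans (hφ _ (dpre_le_comap _ y.2))) ⟨x, hx⟩
    (by rw [dres_commutator_eq_top hs hc hS]; exact Subgroup.mem_top _)

end Cfsg.Agent.H82.Orth
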