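import Cfsg.Agent.H82.Orth.Covering

/-!
# Restricting an extension to the derived preimage of a perfect subgroup
-/

set_option autoImplicit false

open scoped commutatorElement

namespace Cfsg.Agent.H82.Orth

open Cfsg.Agent.H82.Chev

universe u v

variable {Γ : Type u} [Group Γ] {G : Type v} [Group G] {σ : Γ →* G}

/-- The restriction to the derived preimage. -/
def dres (σ : Γ →* G) (K : Subgroup G) : dpre σ K →* K :=
  (σ.comp (dpre σ K).subtype).codRestrict K fun x => dpre_le_comap (σ := σ) K x.2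

theorem coe_dres (σ : Γ →* G) (K : Subgroup G) (x : dpre σ K) : (dres σ K x : G) = σ x := rfl

theorem mem_ker_dres {K : Subgroup G} {x : dpre σ K} : x ∈ (dres σ K).ker ↔ (x : Γ) ∈ σ.ker := by
  rw [MonoidHom.mem_ker, MonoidHom.mem_ker, ← Subtype.coe_inj]
  rfl

theorem dres_surjective (hs : Function.Surjective σ) {K : Subgroup G} (hK : ⁅K, K⁆ = K) :
    Function.Surjective (dres σ K) := fun p => by
  obtain ⟨y, hy, e⟩ := exists_mem_dpre hs (σ := σ) (x := (p : G)) (P := K) (by rw [hK]; exact p.2)
  exact ⟨⟨y, hy⟩, Subtype.ext e⟩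

theorem dres_ker_le_center (hc : σ.ker ≤ Subgroup.center Γ) (K : Subgroup G) :
    (dres σ K).ker ≤ Subgroup.center (dpre σ K) := fun x hx => by
  rw [Subgroup.mem_center_iff]
  exact fun y => Subtype.ext (Subgroup.mem_center_iff.1 (hc (mem_ker_dres.1 hx)) y)

theorem dres_commutator_eq_top (hs : Function.Surjective σ) (hc : σ.ker ≤ Subgroup.center Γ) {K : Subgroup G}
    (hK : ⁅K, K⁆ = K) : commutator (dpre σ K) = ⊤ := by
  refine Subgroup.map_injective (Subgroup.subtype_injective _) ?_
  rw [Subgroup.map_subtype_commutator, dpre_commutator hs hc hK, ← MonoidHom.range_eq_map, Subgroup.range_subtype]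

/-- Derived preimages in the restriction are derived preimages. -/
theorem mem_dpre_dres (hs : Function.Surjective σ) (hc : σ.ker ≤ Subgroup.center Γ) {K : Subgroup G}
    (hK : ⁅K, K⁆ = K) (P : Subgroup K) {y : dpre σ K} :
    y ∈ dpre (dres σ K) P ↔ (y : Γ) ∈ dpre σ (P.map K.subtype) := by
  have h : (dpre (dres σ K) P).map (dpre σ K).subtype = dpre σ (P.map K.subtype) := by
    rw [show dpre (dres σ K) P = ⁅P.comap (dres σ K), P.comap (dres σ K)⁆ from rfl,
      show dpre σ (P.map K.subtype) = ⁅(P.map K.subtype).comap σ, (P.map K.subtype).comap σ⁆ from rfl,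
      Subgroup.map_commutator]
    have hle : (P.comap (dres σ K)).map (dpre σ K).subtype ≤ (P.map K.subtype).comap σ := by
      rintro _ ⟨x, hx, rfl⟩
      exact ⟨dres σ K x, hx, rfl⟩
    refine le_antisymm ?_ (Subgroup.commutator_le.2 fun a ha b hb => ?_)
    · exact Subgroup.commutator_mono hle hle
    · obtain ⟨p, hp, ep⟩ := ha
      obtain ⟨p', hp', ep'⟩ := hb
      obtain ⟨a', ea⟩ := dres_surjective hs hK p
      obtain ⟨b', eb⟩ := dres_surjective hs hK p'
      have ea' : σ a' = σ a := by rw [← ep, ← ea]; rfl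
      have eb' : σ b' = σ b := by rw [← ep', ← eb]; rfl
      rw [← commutator_congr hc ea' eb']
      exact Subgroup.commutator_mem_commutator (Subgroup.mem_map_of_mem (dpre σ K).subtype (show a' ∈ P.comap (dres σ K) by
        rw [Subgroup.mem_comap, ea]; exact hp)) (Subgroup.mem_map_of_mem (dpre σ K).subtype (show b' ∈ P.comap (dres σ K) by
        rw [Subgroup.mem_comap, eb]; exact hp'))
  rw [← h]
  exact ⟨fun hy => ⟨y, hy, rfl⟩, fun ⟨z, hz, e⟩ => by rwa [← Subtype.ext e]⟩

end Cfsg.Agent.H82.Orth
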