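import Cfsg.Agent.H82.Orth.PointEight
import Cfsg.Agent.H82.Orth.Restrict

/-!
# The second step: from a point stabiliser to the stabiliser of an orthonormal pair

In dimension eight and odd characteristic, for a form with six orthonormal vectors and a hyperbolic pair
orthogonal to them, the kernel of a central extension of `Ω` inside the derived preimage of a point stabiliser
lies in that of an orthonormal pair. The lifts of the unipotent elements are made canonical by an element of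
`Ω` which negates the base point.
-/

set_option autoImplicit false
set_option linter.unusedSectionVars false
set_option linter.unusedSimpArgs false
set_option maxHeartbeats 1000000

open QuadraticMap hiding sq
open scoped commutatorElement

namespace Cfsg.Agent.H82.Orth

open Cfsg.Agent.H5 Cfsg.Agent.H82.Chev

universe u

variable {F V : Type*} [Field F] [AddCommGroup V] [Module F V] {Q : QuadraticForm F V}

theorem orthon3 {x y z : Pt Q} (h1 : polar Q x.1 y.1 = 0) (h2 : polar Q x.1 z.1 = 0) (h3 : polar Q y.1 z.1 = 0) :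
    Orthon Q ![x.1, y.1, z.1] :=
  ⟨fun i => by fin_cases i <;> [exact x.2; exact y.2; exact z.2], fun i j hij => by
    fin_cases i <;> fin_cases j <;> first
      | exact absurd rfl hij
      | simp [h1, h2, h3, polar_comm (⇑Q) y.1 x.1, polar_comm (⇑Q) z.1 x.1, polar_comm (⇑Q) z.1 y.1]⟩

theorem orthon4 {x y z w : Pt Q} (h1 : polar Q x.1 y.1 = 0) (h2 : polar Q x.1 z.1 = 0) (h3 : polar Q x.1 w.1 = 0)
    (h4 : polar Q y.1 z.1 = 0) (h5 : polar Q y.1 w.1 = 0) (h6 : polar Q z.1 w.1 = 0) :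
    Orthon Q ![x.1, y.1, z.1, w.1] :=
  ⟨fun i => by fin_cases i <;> [exact x.2; exact y.2; exact z.2; exact w.2], fun i j hij => by
    fin_cases i <;> fin_cases j <;> first
      | exact absurd rfl hij
      | simp [h1, h2, h3, h4, h5, h6, polar_comm (⇑Q) y.1 x.1, polar_comm (⇑Q) z.1 x.1, polar_comm (⇑Q) z.1 y.1,
          polar_comm (⇑Q) w.1 x.1, polar_comm (⇑Q) w.1 y.1, polar_comm (⇑Q) w.1 z.1]⟩

/-- Six orthonormal vectors and a hyperbolic pair orthogonal to them. -/
structure Frame (Q : QuadraticForm F V) where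
  /-- the orthonormal vectors -/
  b : Fin 6 → Pt Q
  /-- the first singular vector -/
  e : V
  /-- the second singular vector -/
  f : V
  orth : ∀ i j, i ≠ j → polar Q (b i).1 (b j).1 = 0
  pair : HypPair Q e f
  be : ∀ i, polar Q (b i).1 e = 0
  bf : ∀ i, polar Q (b i).1 f = 0

/-- The points orthogonal to `v₀`. -/
def Nb (v₀ : Pt Q) : Type _ := {w : Pt Q // polar Q v₀.1 w.1 = 0}

noncomputable instance neighbourAction (v₀ : Pt Q) :
    MulAction (MulAction.stabilizer (commutator (orth Q)) v₀) (Nb v₀) where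
  smul g w := ⟨(g : commutator (orth Q)) • w.1, by
    show polar Q v₀.1 ((((g : commutator (orth Q)) : orth Q) : V ≃ₗ[F] V) w.1.1) = 0
    exact (congrArg (fun y => polar Q y ((((g : commutator (orth Q)) : orth Q) : V ≃ₗ[F] V) w.1.1))
      (mem_stabilizer_point.1 g.2)).symm.trans ((orth_polar _ _ _).trans w.2)⟩
  one_smul w := Subtype.ext (one_smul _ w.1)
  mul_smul g h w := Subtype.ext (mul_smul (g : commutator (orth Q)) h w.1)

theorem mem_stabilizer_nb {v₀ : Pt Q} {w : Nb v₀} {g : MulAction.stabilizer (commutator (orth Q)) v₀} :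
    g ∈ MulAction.stabilizer (MulAction.stabilizer (commutator (orth Q)) v₀) w ↔
      (g : commutator (orth Q)) ∈ MulAction.stabilizer (commutator (orth Q)) w.1 :=
  MulAction.mem_stabilizer_iff.trans (Subtype.ext_iff.trans MulAction.mem_stabilizer_iff.symm)

theorem map_stabilizer_nb {v₀ : Pt Q} (w : Nb v₀) :
    (MulAction.stabilizer (MulAction.stabilizer (commutator (orth Q)) v₀) w).map
        (MulAction.stabilizer (commutator (orth Q)) v₀).subtype =
      MulAction.stabilizer (commutator (orth Q)) v₀ ⊓ MulAction.stabilizer (commutator (orth Q)) w.1 := by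
  ext g
  constructor
  · rintro ⟨x, hx, rfl⟩
    exact ⟨x.2, mem_stabilizer_nb.1 hx⟩
  · rintro ⟨h1, h2⟩
    exact ⟨⟨g, h1⟩, mem_stabilizer_nb.2 h2, rfl⟩

theorem stabilizer_inf3 (a b c : Pt Q) :
    MulAction.stabilizer (commutator (orth Q)) a ⊓ MulAction.stabilizer (commutator (orth Q)) b ⊓
        MulAction.stabilizer (commutator (orth Q)) c =
      fixSub Q (Submodule.span F (Set.range ![a.1, b.1, c.1])) := by
  ext g
  refine ⟨fun h => mem_fixSub_span ?_, fun h =>
    ⟨⟨mem_stabilizer_point.2 (h _ (Submodule.subset_span ⟨0, rfl⟩)),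
      mem_stabilizer_point.2 (h _ (Submodule.subset_span ⟨1, rfl⟩))⟩,
      mem_stabilizer_point.2 (h _ (Submodule.subset_span ⟨2, rfl⟩))⟩⟩
  rintro x ⟨i, rfl⟩
  fin_cases i
  · exact mem_stabilizer_point.1 h.1.1
  · exact mem_stabilizer_point.1 h.1.2
  · exact mem_stabilizer_point.1 h.2

variable [FiniteDimensional F V] [Finite F] [Finite V] (h2 : (2 : F) ≠ 0)
  (hQ : (polarBilin Q).Nondegenerate) (h8 : Module.finrank F V = 8)

include h2 hQ h8

theorem nb_stab_perfect {v₀ : Pt Q} (w : Nb v₀) :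
    ⁅MulAction.stabilizer (MulAction.stabilizer (commutator (orth Q)) v₀) w,
        MulAction.stabilizer (MulAction.stabilizer (commutator (orth Q)) v₀) w⁆ =
      MulAction.stabilizer (MulAction.stabilizer (commutator (orth Q)) v₀) w := by
  refine Subgroup.map_injective (Subgroup.subtype_injective _) ?_
  rw [Subgroup.map_commutator, map_stabilizer_nb]
  exact pair_perfect' h2 hQ (by omega) w.2

theorem nb_pair_perfect {v₀ : Pt Q} {a b : Nb v₀} (hab : polar Q a.1.1 b.1.1 = 0) :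
    ⁅MulAction.stabilizer (MulAction.stabilizer (commutator (orth Q)) v₀) a ⊓
          MulAction.stabilizer (MulAction.stabilizer (commutator (orth Q)) v₀) b,
        MulAction.stabilizer (MulAction.stabilizer (commutator (orth Q)) v₀) a ⊓
          MulAction.stabilizer (MulAction.stabilizer (commutator (orth Q)) v₀) b⁆ =
      MulAction.stabilizer (MulAction.stabilizer (commutator (orth Q)) v₀) a ⊓
          MulAction.stabilizer (MulAction.stabilizer (commutator (orth Q)) v₀) b := by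
  refine Subgroup.map_injective (Subgroup.subtype_injective _) ?_
  rw [Subgroup.map_commutator, Subgroup.map_inf _ _ _ (Subgroup.subtype_injective _), map_stabilizer_nb,
    map_stabilizer_nb, ← inf_inf_distrib_left, ← inf_assoc, stabilizer_inf3]
  obtain ⟨-, hW, hd⟩ := nondeg_span _ ((orthon3 a.2 b.2 hab).regular h2)
  refine fixSub_perfect hQ hW ?_
  have := finrank_perp_add hQ (Submodule.span F (Set.range ![v₀.1, a.1.1, b.1.1]))
  omega

/-- A map of orthonormal tuples fixing `v₀` gives an element of the stabiliser. -/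
theorem nb_exists_map {v₀ : Pt Q} {k : ℕ} {a b : Fin (k + 1) → V} (hk : k + 3 ≤ 8) (ha : Orthon Q a)
    (hb : Orthon Q b) (ha0 : a 0 = v₀.1) (hb0 : b 0 = v₀.1) :
    ∃ g : MulAction.stabilizer (commutator (orth Q)) v₀,
      ∀ i, ((((g : commutator (orth Q)) : orth Q)) : V ≃ₗ[F] V) (a i) = b i := by
  obtain ⟨g, hg⟩ := exists_map_orthon h2 hQ (by omega) (k := k + 1) (by omega) ha hb
  refine ⟨⟨g, mem_stabilizer_point.2 ?_⟩, hg⟩
  have h := hg 0
  rwa [ha0, hb0] at h

/-- The kernel lies in the derived preimage of the stabiliser of an orthonormal pair. -/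
theorem ker_le_pair (Φ : Frame Q) {Γ : Type u} [Group Γ] {σ : Γ →* commutator (orth Q)}
    (hs : Function.Surjective σ) (hc : σ.ker ≤ Subgroup.center Γ) (hperf : commutator Γ = ⊤) :
    σ.ker ≤ dpre σ (MulAction.stabilizer (commutator (orth Q)) (Φ.b 0) ⊓
      MulAction.stabilizer (commutator (orth Q)) (Φ.b 1)) := by
  set v₀ := Φ.b 0 with hv₀
  intro z0 hz0
  have hz1 : z0 ∈ dpre σ (MulAction.stabilizer (commutator (orth Q)) v₀) :=
    ker_le_point_eight h2 hQ (by omega) hs hc hperf v₀ hz0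
  set K := MulAction.stabilizer (commutator (orth Q)) v₀ with hKdef
  have hK : ⁅K, K⁆ = K := point_perfect' h2 hQ (by omega) v₀
  set τ := dres σ K with hτ
  have hsτ : Function.Surjective τ := dres_surjective hs hK
  have hcτ : τ.ker ≤ Subgroup.center (dpre σ K) := dres_ker_le_center hc K
  have nb : ∀ i : Fin 6, i ≠ 0 → polar Q v₀.1 (Φ.b i).1 = 0 := fun i hi => Φ.orth 0 i (Ne.symm hi)
  let w₀ : Nb v₀ := ⟨Φ.b 1, nb 1 (by decide)⟩
  let C : Nb v₀ → Nb v₀ → Prop := fun v a => polar Q w₀.1.1 a.1.1 = 0 ∧ polar Q v.1.1 a.1.1 = 0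
  suffices h : τ.ker ≤ dpre τ (MulAction.stabilizer K w₀) by
    have := (mem_dpre_dres hs hc hK _).1 (h (show (⟨z0, hz1⟩ : dpre σ K) ∈ τ.ker from mem_ker_dres.2 hz0))
    rwa [map_stabilizer_nb] at this
  have hperfτ : commutator (dpre σ K) = ⊤ := dres_commutator_eq_top hs hc hK
  have htrans : ∀ v : Nb v₀, ∃ g : K, g • w₀ = v := fun v => by
    obtain ⟨g, hg⟩ := nb_exists_map h2 hQ h8 (v₀ := v₀) (by norm_num) (orthon_inf h2 hQ w₀.2)
      (orthon_inf h2 hQ v.2) rfl rfl
    exact ⟨g, Subtype.ext (Subtype.ext (hg 1))⟩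
  have hsym : ∀ {a b : Pt Q}, polar Q a.1 b.1 = 0 → polar Q b.1 a.1 = 0 := fun {a b} h => by
    rwa [polar_comm]
  -- a point orthogonal to three given ones
  have hfind : ∀ (S : Submodule F V), Module.finrank F S + Module.finrank F ↥(S ⊓ perp Q S) + 2 ≤ 8 →
      ∃ y : Pt Q, ∀ x ∈ S, polar Q x y.1 = 0 := fun S hS => by
    obtain ⟨y, hy, hy1⟩ := exists_norm_perp h2 hQ S (by omega) 1
    exact ⟨⟨y, hy1⟩, fun x hx => mem_perp.1 hy x hx⟩
  have hne : ∀ v, ∃ u, C v u := fun v => by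
    obtain ⟨-, hP, hPd⟩ := nondeg_span _ ((orthon_inf h2 hQ w₀.2).regular h2)
    have := rad_le (show Submodule.span F (Set.range ![v₀.1, w₀.1.1]) ≤
      Submodule.span F (Set.range ![v₀.1, w₀.1.1]) ⊔ Submodule.span F {v.1.1} from le_sup_left) hP
    have := finrank_sup_span_singleton_le (Submodule.span F (Set.range ![v₀.1, w₀.1.1])) v.1.1
    obtain ⟨y, hy⟩ := hfind _ (show Module.finrank F
      ↥(Submodule.span F (Set.range ![v₀.1, w₀.1.1]) ⊔ Submodule.span F {v.1.1}) + _ + 2 ≤ 8 by omega)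
    exact ⟨⟨y, hy _ (Submodule.mem_sup_left (Submodule.subset_span ⟨0, rfl⟩))⟩,
      hy _ (Submodule.mem_sup_left (Submodule.subset_span ⟨1, rfl⟩)),
      hy _ (Submodule.mem_sup_right (Submodule.mem_span_singleton_self _))⟩
  -- the stabiliser of three orthonormal points moves the fourth
  have hstep : ∀ v a b : Nb v₀, C v a → C v b → polar Q a.1.1 b.1.1 = 0 → StepA τ w₀ v C a b := by
    intro v a b ha hb hab
    obtain ⟨g, hg⟩ := nb_exists_map h2 hQ h8 (v₀ := v₀) (by norm_num)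
      (orthon4 a.2 b.2 w₀.2 hab (hsym ha.1) (hsym hb.1)) (orthon4 a.2 b.2 v.2 hab (hsym ha.2) (hsym hb.2))
      rfl rfl
    refine stepA_of_mem hsτ ha hb inf_le_left inf_le_right (g := g) ?_ (Subtype.ext (Subtype.ext (hg 3)))
    rw [nb_pair_perfect h2 hQ h8 hab]
    exact ⟨mem_stabilizer_nb.2 (mem_stabilizer_point.2 (hg 1)), mem_stabilizer_nb.2 (mem_stabilizer_point.2 (hg 2))⟩
  -- the moving element
  set c := (Φ.b 1).1 - (Φ.b 2).1 with hcdef
  set d := (Φ.b 2).1 - (Φ.b 3).1 with hddef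
  have hqc : Q c = 2 := by
    rw [hcdef, sub_eq_add_neg, QuadraticMap.map_add (⇑Q), QuadraticMap.map_neg, polar_neg_right, (Φ.b 1).2,
      (Φ.b 2).2, Φ.orth 1 2 (by decide)]
    ring
  have hqd : Q d = 2 := by
    rw [hddef, sub_eq_add_neg, QuadraticMap.map_add (⇑Q), QuadraticMap.map_neg, polar_neg_right, (Φ.b 2).2,
      (Φ.b 3).2, Φ.orth 2 3 (by decide)]
    ring
  have hmemx : refl Q c * refl Q d ∈ commutator (orth Q) := by
    have := (list_prod_mem_commutator_iff hQ (Or.inr (by omega)) (vs := [c, d])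
      (by intro x hx; simp at hx; rcases hx with rfl | rfl <;> simp [hqc, hqd, h2])).2
      ⟨⟨1, rfl⟩, ⟨2, by simp [hqc, hqd]⟩⟩
    simpa using this
  have hfixx : ∀ y : V, (∀ i : Fin 6, (i = 1 ∨ i = 2 ∨ i = 3) → polar Q (Φ.b i).1 y = 0) →
      ((refl Q c * refl Q d : orth Q) : V ≃ₗ[F] V) y = y := fun y h => by
    have k1 : ((refl Q d : orth Q) : V ≃ₗ[F] V) y = y :=
      refl_apply_of_ortho (by rw [hddef, polar_sub_left, h 2 (by decide), h 3 (by decide), sub_zero])
    have k2 : ((refl Q c : orth Q) : V ≃ₗ[F] V) y = y :=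
      refl_apply_of_ortho (by rw [hcdef, polar_sub_left, h 1 (by decide), h 2 (by decide), sub_zero])
    rw [orth_mul_apply, k1, k2]
  have hbo : ∀ i j : Fin 6, i ≠ j → polar Q (Φ.b i).1 (Φ.b j).1 = 0 := Φ.orth
  let x : K := ⟨⟨_, hmemx⟩, mem_stabilizer_point.2 (hfixx _ fun i hi => by
    refine hbo i 0 ?_
    rcases hi with rfl | rfl | rfl <;> decide)⟩
  have hxw : (x • w₀).1.1 = (Φ.b 2).1 := by
    show ((refl Q c * refl Q d : orth Q) : V ≃ₗ[F] V) (Φ.b 1).1 = (Φ.b 2).1
    have k1 : ((refl Q d : orth Q) : V ≃ₗ[F] V) (Φ.b 1).1 = (Φ.b 1).1 :=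
      refl_apply_of_ortho (by rw [hddef, polar_sub_left, hbo 2 1 (by decide), hbo 3 1 (by decide), sub_zero])
    rw [orth_mul_apply, k1, refl_apply, hqc, hcdef, polar_sub_left, polar_self', (Φ.b 1).2, hbo 2 1 (by decide),
      sub_zero, mul_one, inv_mul_cancel₀ h2, one_smul, sub_sub_cancel]
  refine ker_le_dpre_of_agree hsτ hcτ hperfτ w₀ C htrans hne (fun v u hu => ?_) (fun v u hu g hg => ?_)
    (fun v a b ha hb => ?_) (fun h hh v u hu => ?_) {x} ?_ ?_ (nb_stab_perfect h2 hQ h8 w₀)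
  · obtain ⟨g, hg⟩ := nb_exists_map h2 hQ h8 (v₀ := v₀) (by norm_num)
      (orthon3 u.2 w₀.2 (hsym hu.1)) (orthon3 u.2 v.2 (hsym hu.2)) rfl rfl
    refine ⟨g, ?_, Subtype.ext (Subtype.ext (hg 2))⟩
    rw [nb_stab_perfect h2 hQ h8]
    exact mem_stabilizer_nb.2 (mem_stabilizer_point.2 (hg 1))
  · rw [← nb_pair_perfect h2 hQ h8 (hsym hu.1)] at hg
    obtain ⟨y, hy, e⟩ := exists_mem_dpre hsτ hg
    exact ⟨y, dpre_mono inf_le_left hy, e, dpre_mono inf_le_right hy⟩
  · -- connectivity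
    set S := Submodule.span F (Set.range ![v₀.1, w₀.1.1, v.1.1, a.1.1, b.1.1]) with hS
    have hS5 : Module.finrank F S ≤ 5 := finrank_span_range_le _
    have mS : ∀ i, ![v₀.1, w₀.1.1, v.1.1, a.1.1, b.1.1] i ∈ S := fun i => Submodule.subset_span ⟨i, rfl⟩
    have m0 : v₀.1 ∈ S := mS 0
    have m1 : w₀.1.1 ∈ S := mS 1
    have m2 : v.1.1 ∈ S := mS 2
    have m3 : a.1.1 ∈ S := mS 3
    have m4 : b.1.1 ∈ S := mS 4
    obtain ⟨-, hP, hPd⟩ := nondeg_span _ ((orthon3 w₀.2 a.2 ha.1).regular h2)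
    set P := Submodule.span F (Set.range ![v₀.1, w₀.1.1, a.1.1]) with hPdef
    have hPS : P ≤ S := Submodule.span_le.2 (by
      rintro z ⟨i, rfl⟩
      fin_cases i
      · exact m0
      · exact m1
      · exact m3)
    have hr := rad_le hPS hP
    by_cases hok : Module.finrank F S + Module.finrank F ↥(S ⊓ perp Q S) + 2 ≤ 8
    · obtain ⟨y, hy⟩ := hfind S hok
      have hz : C v ⟨y, hy _ m0⟩ := ⟨hy _ m1, hy _ m2⟩
      exact .trans _ ⟨y, hy _ m0⟩ _ (.rel _ _ (hstep v a _ ha hz (hy _ m3)))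
        (.symm _ _ (.rel _ _ (hstep v b _ hb hz (hy _ m4))))
    have heq : S ⊓ perp Q S = S ⊓ perp Q P := by
      refine Submodule.eq_of_le_of_finrank_le (inf_le_inf_left _ (perp_anti hPS)) ?_
      have h := Submodule.finrank_sup_add_finrank_inf_eq (S ⊓ perp Q P) P
      have h0 : (S ⊓ perp Q P) ⊓ P = ⊥ := eq_bot_iff.2 fun z hz => by
        have : z ∈ P ⊓ perp Q P := ⟨hz.2, hz.1.2⟩
        rwa [hP] at this
      have h1 : Module.finrank F ↥(S ⊓ perp Q P ⊔ P) ≤ Module.finrank F S :=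
        Submodule.finrank_mono (sup_le inf_le_left hPS)
      rw [h0, finrank_bot] at h
      omega
    have hrad : ∀ z ∈ S, polar Q v₀.1 z = 0 → polar Q w₀.1.1 z = 0 → polar Q a.1.1 z = 0 →
        ∀ x ∈ S, polar Q x z = 0 := by
      intro z hz e0 e1 e2
      have hzR : z ∈ S ⊓ perp Q S := by
        rw [heq]
        refine ⟨hz, mem_perp.2 fun x hx => ?_⟩
        obtain ⟨k, rfl⟩ := (Submodule.mem_span_range_iff_exists_fun F).1 hx
        simp [Fin.sum_univ_three, polar_add_left, polar_smul_left, e0, e1, e2]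
      exact mem_perp.1 hzR.2
    obtain ⟨α, hα⟩ : ∃ α : F, polar Q w₀.1.1 v.1.1 = 2 * α := ⟨_, (mul_div_cancel₀ _ h2).symm⟩
    set ρ := v.1.1 - α • w₀.1.1 with hρdef
    have hρS : ρ ∈ S := sub_mem m2 (S.smul_mem _ m1)
    have hva : polar Q a.1.1 v.1.1 = 0 := hsym ha.2
    have hρ : ∀ x ∈ S, polar Q x ρ = 0 := hrad ρ hρS
      (by simp [hρdef, polar_sub_right, polar_smul_right, v.2, w₀.2])
      (by simp [hρdef, polar_sub_right, polar_smul_right, hα, polar_self', w₀.1.2]; ring)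
      (by simp [hρdef, polar_sub_right, polar_smul_right, hva, polar_comm (⇑Q) a.1.1 w₀.1.1, ha.1])
    have hρρ : Q ρ = 0 := by
      have h := hρ ρ hρS
      rw [polar_self'] at h
      exact (mul_eq_zero.1 h).resolve_left h2
    have hρ' : ∀ x ∈ S, polar Q ρ x = 0 := fun x hx => by rw [polar_comm]; exact hρ x hx
    have hv : v.1.1 = α • w₀.1.1 + ρ := by rw [hρdef, add_sub_cancel]
    have hα1 : α * α = 1 := by
      have h := v.1.2
      rw [hv, QuadraticMap.map_add (⇑Q), QuadraticMap.map_smul, w₀.1.2, hρρ, polar_smul_left, hρ _ m1,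
        smul_zero, smul_eq_mul, mul_one, add_zero, add_zero] at h
      exact h
    -- agreeing lifts of an element carrying `w₀` to `α • w₀`
    obtain ⟨la, hla, lb, hlb, hlw, hlab⟩ : ∃ la ∈ dpre τ (MulAction.stabilizer K a),
        ∃ lb ∈ dpre τ (MulAction.stabilizer K b), ((τ la • w₀).1.1 = α • w₀.1.1 ∧ (τ lb • w₀).1.1 = α • w₀.1.1) ∧
          la⁻¹ * lb ∈ dpre τ (MulAction.stabilizer K w₀) := by
      rcases mul_self_eq_one_iff.1 hα1 with hα' | hα'
      · refine ⟨1, one_mem _, 1, one_mem _, ⟨?_, ?_⟩, by simp⟩ <;> simp [hα']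
      obtain ⟨T, hT⟩ : ∃ T, T = Submodule.span F (Set.range ![v₀.1, w₀.1.1, a.1.1, b.1.1]) := ⟨_, rfl⟩
      have hT4 : Module.finrank F T ≤ 4 := hT ▸ finrank_span_range_le _
      have hPT : P ≤ T := by
        rw [hT]
        refine Submodule.span_le.2 ?_
        rintro z ⟨i, rfl⟩
        fin_cases i
        · exact Submodule.subset_span ⟨0, rfl⟩
        · exact Submodule.subset_span ⟨1, rfl⟩
        · exact Submodule.subset_span ⟨2, rfl⟩
      have hrT := rad_le hPT hP
      obtain ⟨w, hw⟩ := hfind T (by omega)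
      have t0 : polar Q v₀.1 w.1 = 0 := hw _ (hT ▸ Submodule.subset_span ⟨0, rfl⟩)
      have t1 : polar Q w₀.1.1 w.1 = 0 := hw _ (hT ▸ Submodule.subset_span ⟨1, rfl⟩)
      have t2 : polar Q a.1.1 w.1 = 0 := hw _ (hT ▸ Submodule.subset_span ⟨2, rfl⟩)
      have t3 : polar Q b.1.1 w.1 = 0 := hw _ (hT ▸ Submodule.subset_span ⟨3, rfl⟩)
      obtain ⟨-, hP4, hP4d⟩ := nondeg_span _ ((orthon4 w₀.2 a.2 t0 ha.1 t1 t2).regular h2)
      set P4 := Submodule.span F (Set.range ![v₀.1, w₀.1.1, a.1.1, w.1]) with hP4def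
      have hrT' := rad_le (show P4 ≤ P4 ⊔ Submodule.span F {b.1.1} from le_sup_left) hP4
      have := finrank_sup_span_singleton_le P4 b.1.1
      obtain ⟨cp, hcp⟩ := hfind (P4 ⊔ Submodule.span F {b.1.1}) (by omega)
      have mP : ∀ i, ![v₀.1, w₀.1.1, a.1.1, w.1] i ∈ P4 ⊔ Submodule.span F {b.1.1} := fun i =>
        Submodule.mem_sup_left (Submodule.subset_span ⟨i, rfl⟩)
      have hmem2 : refl Q w₀.1.1 * refl Q w.1 ∈ commutator (orth Q) := by
        have := (list_prod_mem_commutator_iff hQ (Or.inr (by omega)) (vs := [w₀.1.1, w.1])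
          (by intro x hx; simp at hx; rcases hx with rfl | rfl <;> simp [w₀.1.2, w.2])).2
          ⟨⟨1, rfl⟩, ⟨1, by simp [w₀.1.2, w.2]⟩⟩
        simpa using this
      have hfix2 : ∀ y, polar Q w₀.1.1 y = 0 → polar Q w.1 y = 0 →
          ((refl Q w₀.1.1 * refl Q w.1 : orth Q) : V ≃ₗ[F] V) y = y := fun y e1 e2 => by
        rw [orth_mul_apply, refl_apply_of_ortho e2, refl_apply_of_ortho e1]
      let h : K := ⟨⟨_, hmem2⟩, mem_stabilizer_point.2 (hfix2 _ (hsym w₀.2) (hsym t0))⟩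
      have hha : h ∈ MulAction.stabilizer K a :=
        mem_stabilizer_nb.2 (mem_stabilizer_point.2 (hfix2 _ ha.1 (hsym t2)))
      have hhb : h ∈ MulAction.stabilizer K b :=
        mem_stabilizer_nb.2 (mem_stabilizer_point.2 (hfix2 _ hb.1 (hsym t3)))
      let cn : Nb v₀ := ⟨cp, hcp _ (mP 0)⟩
      have hhc : h ∈ MulAction.stabilizer K cn :=
        mem_stabilizer_nb.2 (mem_stabilizer_point.2 (hfix2 _ (hcp _ (mP 1)) (hcp _ (mP 3))))
      have hac : polar Q a.1.1 cn.1.1 = 0 := hcp _ (mP 2)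
      have hbc : polar Q b.1.1 cn.1.1 = 0 := hcp _ (Submodule.mem_sup_right (Submodule.mem_span_singleton_self _))
      obtain ⟨la, hla, ela⟩ := exists_mem_dpre hsτ (σ := τ) (x := h)
        (P := MulAction.stabilizer K a ⊓ MulAction.stabilizer K cn)
        (by rw [nb_pair_perfect h2 hQ h8 hac]; exact ⟨hha, hhc⟩)
      obtain ⟨lb, hlb, elb⟩ := exists_mem_dpre hsτ (σ := τ) (x := h)
        (P := MulAction.stabilizer K b ⊓ MulAction.stabilizer K cn)
        (by rw [nb_pair_perfect h2 hQ h8 hbc]; exact ⟨hhb, hhc⟩)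
      have hhw : (h • w₀).1.1 = α • w₀.1.1 := by
        show ((refl Q w₀.1.1 * refl Q w.1 : orth Q) : V ≃ₗ[F] V) w₀.1.1 = α • w₀.1.1
        rw [orth_mul_apply, refl_apply_of_ortho (hsym t1), refl_apply_self (by rw [w₀.1.2]; exact one_ne_zero),
          hα', neg_one_smul]
      exact ⟨la, dpre_mono inf_le_left hla, lb, dpre_mono inf_le_left hlb, ⟨by rw [ela]; exact hhw,
        by rw [elb]; exact hhw⟩, lift_congr_of_trans hsτ hcτ (htrans cn) (dpre_mono inf_le_right hla)
          (dpre_mono inf_le_right hlb) (ela.trans elb.symm)⟩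
    -- the canonical lift of the unipotent element
    have hρx : ∀ k : F, polar Q ρ (k • w₀.1.1) = 0 := fun k => by rw [polar_smul_right, hρ' _ m1, smul_zero]
    set t := -α / 2 with ht
    set t' := -t / 2 with ht'
    have hemem : eich Q ρ (t' • w₀.1.1) ∈ commutator (orth Q) := eich_mem_commutator hQ (by omega) _ _
    have hefix : ∀ y ∈ S, polar Q w₀.1.1 y = 0 → (eich Q ρ (t' • w₀.1.1) : V ≃ₗ[F] V) y = y := fun y hy e =>
      eich_fix hρρ (hρx t') (hρ' y hy) (by rw [polar_smul_left, e, smul_zero])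
    let e' : commutator (orth Q) := ⟨_, hemem⟩
    have hmemh : refl Q v₀.1 * refl Q w₀.1.1 ∈ commutator (orth Q) := by
      have := (list_prod_mem_commutator_iff hQ (Or.inr (by omega)) (vs := [v₀.1, w₀.1.1])
        (by intro x hx; simp at hx; rcases hx with rfl | rfl <;> simp [v₀.2, w₀.1.2])).2
        ⟨⟨1, rfl⟩, ⟨1, by simp [v₀.2, w₀.1.2]⟩⟩
      simpa using this
    have hfixh : ∀ y, polar Q v₀.1 y = 0 → polar Q w₀.1.1 y = 0 →
        ((refl Q v₀.1 * refl Q w₀.1.1 : orth Q) : V ≃ₗ[F] V) y = y := fun y e0 e1 => by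
      rw [orth_mul_apply, refl_apply_of_ortho e1, refl_apply_of_ortho e0]
    have hneg : ((refl Q v₀.1 * refl Q w₀.1.1 : orth Q) : V ≃ₗ[F] V) v₀.1 = -v₀.1 := by
      rw [orth_mul_apply, refl_apply_of_ortho (hsym w₀.2), refl_apply_self (by rw [v₀.2]; exact one_ne_zero)]
    have hnegw : ((refl Q v₀.1 * refl Q w₀.1.1 : orth Q) : V ≃ₗ[F] V) w₀.1.1 = -w₀.1.1 := by
      rw [orth_mul_apply, refl_apply_self (by rw [w₀.1.2]; exact one_ne_zero), map_neg,
        refl_apply_of_ortho w₀.2]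
    obtain ⟨hh, ehh⟩ := hs ⟨_, hmemh⟩
    have hcl : ∀ c : Nb v₀, c.1.1 ∈ S → polar Q w₀.1.1 c.1.1 = 0 →
        ∃ ec ∈ dpre σ (K ⊓ MulAction.stabilizer (commutator (orth Q)) c.1), σ ec = e' ∧
          ⁅hh, ec⁆ ∈ dpre σ (K ⊓ MulAction.stabilizer (commutator (orth Q)) c.1) := by
      intro c hcS hcw
      have hpp := pair_perfect' h2 hQ (by omega) c.2
      have hemem' : e' ∈ K ⊓ MulAction.stabilizer (commutator (orth Q)) c.1 :=
        ⟨mem_stabilizer_point.2 (hefix _ m0 (hsym w₀.2)), mem_stabilizer_point.2 (hefix _ hcS hcw)⟩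
      rw [← hpp] at hemem'
      obtain ⟨ec, hec, eec⟩ := exists_mem_dpre hs hemem'
      refine ⟨ec, hec, eec, ?_⟩
      rw [commutatorElement_def]
      refine mul_mem (conj_mem_dpre hh (fun p hp => ?_) hec) (inv_mem hec)
      have hval : ∀ y : V, ((σ hh * p * (σ hh)⁻¹ : commutator (orth Q)) : orth Q) =
          ((⟨_, hmemh⟩ : commutator (orth Q)) : orth Q) * p * ((⟨_, hmemh⟩ : commutator (orth Q)) : orth Q)⁻¹ :=
        fun _ => by rw [ehh]; rfl
      have hconj : ∀ y : V, (((p : orth Q)) : V ≃ₗ[F] V) y = y →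
          (((σ hh * p * (σ hh)⁻¹ : commutator (orth Q)) : orth Q) : V ≃ₗ[F] V)
            (((refl Q v₀.1 * refl Q w₀.1.1 : orth Q) : V ≃ₗ[F] V) y) =
            ((refl Q v₀.1 * refl Q w₀.1.1 : orth Q) : V ≃ₗ[F] V) y := fun y hy => by
        rw [hval y, orth_mul_apply, orth_mul_apply, orth_inv_apply_apply, hy]
      constructor
      · have := hconj v₀.1 (mem_stabilizer_point.1 hp.1)
        rw [hneg, map_neg, neg_inj] at this
        exact mem_stabilizer_point.2 this
      · have := hconj c.1.1 (mem_stabilizer_point.1 hp.2)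
        rw [hfixh _ c.2 hcw] at this
        exact mem_stabilizer_point.2 this
    obtain ⟨ea, hea, eea, hAa⟩ := hcl a m3 ha.1
    obtain ⟨eb, heb, eeb, hAb⟩ := hcl b m4 hb.1
    rw [← commutator_congr hc (rfl : σ hh = σ hh) (eea.trans eeb.symm)] at hAb
    set A := ⁅hh, ea⁆ with hA
    have hAK : A ∈ dpre σ K := dpre_mono inf_le_left hAa
    have hAval : ((σ A : commutator (orth Q)) : orth Q) = eich Q ρ (t • w₀.1.1) := by
      rw [hA, map_commutatorElement, ehh, eea]
      show ⁅refl Q v₀.1 * refl Q w₀.1.1, eich Q ρ (t' • w₀.1.1)⁆ = _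
      rw [commutatorElement_def, eich_conj, map_smul, hnegw, hfixh _ (hρ _ m0) (hρ _ m1),
        eich_inv hρρ (hρx t'), smul_neg, eich_mul hρρ (by rw [polar_neg_right, hρx, neg_zero])
          (by rw [polar_neg_right, hρx, neg_zero])]
      congr 1
      rw [ht', ← neg_add, ← add_smul, ← neg_smul]
      congr 1
      field_simp
      ring
    have hAw : (eich Q ρ (t • w₀.1.1) : V ≃ₗ[F] V) (α • w₀.1.1) = v.1.1 := by
      rw [map_smul, eich_apply hρρ (hρx t), hρ' _ m1, polar_smul_left, polar_self', w₀.1.2, zero_smul, add_zero,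
        mul_zero, zero_smul, sub_zero, smul_eq_mul, smul_sub, smul_smul, hv, sub_eq_add_neg, ← neg_smul]
      congr 1
      conv_rhs => rw [← one_smul F ρ]
      congr 1
      rw [ht]
      field_simp
      linear_combination hα1
    have mk : ∀ (c : Nb v₀) (lc : dpre σ K), A ∈ dpre σ (K ⊓ MulAction.stabilizer (commutator (orth Q)) c.1) →
        lc ∈ dpre τ (MulAction.stabilizer K c) → (τ lc • w₀).1.1 = α • w₀.1.1 →
        (⟨A, hAK⟩ * lc : dpre σ K) ∈ dpre τ (MulAction.stabilizer K c) ∧ τ (⟨A, hAK⟩ * lc) • w₀ = v := by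
      intro c lc hA' hlc hl
      refine ⟨mul_mem ((mem_dpre_dres hs hc hK _).2 (by rw [map_stabilizer_nb]; exact hA')) hlc, ?_⟩
      rw [map_mul, mul_smul]
      refine Subtype.ext (Subtype.ext ?_)
      show (((σ A : commutator (orth Q)) : orth Q) : V ≃ₗ[F] V) (τ lc • w₀).1.1 = v.1.1
      rw [hAval, hl, hAw]
    obtain ⟨ya1, ya2⟩ := mk a la hAa hla hlw.1
    obtain ⟨yb1, yb2⟩ := mk b lb hAb hlb hlw.2
    refine .rel _ _ ⟨ha, hb, _, ya1, _, yb1, ya2, yb2, ?_⟩
    rw [mul_inv_rev, mul_assoc, inv_mul_cancel_left]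
    exact hlab
  · have hh' := mem_stabilizer_point.1 (mem_stabilizer_nb.1 (MulAction.mem_stabilizer_iff.2 hh))
    constructor
    · show polar Q w₀.1.1 ((((h : commutator (orth Q)) : orth Q) : V ≃ₗ[F] V) u.1.1) = 0
      conv_lhs => rw [← hh']
      rw [orth_polar]; exact hu.1
    · show polar Q ((((h : commutator (orth Q)) : orth Q) : V ≃ₗ[F] V) v.1.1)
        ((((h : commutator (orth Q)) : orth Q) : V ≃ₗ[F] V) u.1.1) = 0
      rw [orth_polar]; exact hu.2
  · refine eq_top_of_stab_of_edge (R := fun p q : Nb v₀ => polar Q p.1.1 q.1.1 = 0) _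
      (fun g hg => Subgroup.subset_closure (Or.inr hg)) (x := x) (Subgroup.subset_closure (Or.inl rfl))
      (by show polar Q w₀.1.1 (x • w₀).1.1 = 0; rw [hxw]; exact hbo 1 2 (by decide))
      (fun g p q h => ?_) (fun p q hp hq => ?_) (fun v => ?_)
    · show polar Q ((((g : commutator (orth Q)) : orth Q) : V ≃ₗ[F] V) p.1.1)
        ((((g : commutator (orth Q)) : orth Q) : V ≃ₗ[F] V) q.1.1) = 0
      rw [orth_polar]; exact h
    · obtain ⟨g, hg⟩ := nb_exists_map h2 hQ h8 (v₀ := v₀) (by norm_num) (orthon3 w₀.2 p.2 hp)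
        (orthon3 w₀.2 q.2 hq) rfl rfl
      exact ⟨g, mem_stabilizer_nb.2 (mem_stabilizer_point.2 (hg 1)), Subtype.ext (Subtype.ext (hg 2))⟩
    · obtain ⟨u, hu⟩ := hne v
      exact ⟨u, hu.1, hsym hu.2⟩
  · rintro _ rfl
    let us : Nb v₀ := ⟨Φ.b 4, nb 4 (by decide)⟩
    have hxu : x ∈ MulAction.stabilizer K us :=
      mem_stabilizer_nb.2 (mem_stabilizer_point.2 (hfixx _ fun i hi => by
        refine hbo i 4 ?_
        rcases hi with rfl | rfl | rfl <;> decide))
    obtain ⟨y, hy, ey⟩ := exists_mem_dpre hsτ (σ := τ) (x := x) (P := MulAction.stabilizer K us)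
      (by rw [nb_stab_perfect h2 hQ h8]; exact hxu)
    refine ⟨y, ey, fun v => ?_⟩
    -- a point orthogonal to five of the six and to `v`
    obtain ⟨z, hz5, hzv⟩ : ∃ z : Pt Q, (∀ i : Fin 6, i ≠ 5 → polar Q (Φ.b i).1 z.1 = 0) ∧
        polar Q v.1.1 z.1 = 0 := by
      set γ := polar Q v.1.1 (Φ.b 5).1 with hγ
      have hb5e : polar Q (Φ.b 5).1 Φ.e = 0 := Φ.be 5
      have hb5f : polar Q (Φ.b 5).1 Φ.f = 0 := Φ.bf 5
      have mk : ∀ (k : F) (g : V), Q g = 0 → polar Q (Φ.b 5).1 g = 0 → (∀ i, polar Q (Φ.b i).1 g = 0) →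
          γ + k * polar Q v.1.1 g = 0 →
          ∃ z : Pt Q, (∀ i : Fin 6, i ≠ 5 → polar Q (Φ.b i).1 z.1 = 0) ∧ polar Q v.1.1 z.1 = 0 := by
        intro k g hg hg5 hgi hk
        refine ⟨⟨(Φ.b 5).1 + k • g, ?_⟩, fun i hi => ?_, ?_⟩
        · rw [QuadraticMap.map_add (⇑Q), QuadraticMap.map_smul, hg, (Φ.b 5).2, polar_smul_right, hg5]
          simp
        · simp [polar_add_right, polar_smul_right, hgi i, hbo i 5 hi]
        · simp [polar_add_right, polar_smul_right, ← hγ, hk]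
      by_cases hf : polar Q v.1.1 Φ.f = 0
      · by_cases he : polar Q v.1.1 Φ.e = 0
        · refine ⟨⟨Φ.e + Φ.f, ?_⟩, fun i _ => ?_, ?_⟩
          · rw [QuadraticMap.map_add (⇑Q), Φ.pair.left, Φ.pair.right, Φ.pair.pair]; ring
          · simp [polar_add_right, Φ.be i, Φ.bf i]
          · simp [polar_add_right, he, hf]
        · exact mk (-γ / polar Q v.1.1 Φ.e) _ Φ.pair.left hb5e Φ.be (by field_simp; ring)
      · exact mk (-γ / polar Q v.1.1 Φ.f) _ Φ.pair.right hb5f Φ.bf (by field_simp; ring)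
    let zn : Nb v₀ := ⟨z, hz5 0 (by decide)⟩
    have hxz : ((refl Q c * refl Q d : orth Q) : V ≃ₗ[F] V) z.1 = z.1 := hfixx _ fun i hi => by
      refine hz5 i ?_
      rcases hi with rfl | rfl | rfl <;> decide
    refine ⟨zn, ⟨hz5 1 (by decide), hzv⟩, ⟨hz5 1 (by decide), ?_⟩, ?_⟩
    · show polar Q (((refl Q c * refl Q d : orth Q) : V ≃ₗ[F] V) v.1.1) z.1 = 0
      conv_lhs => rw [← hxz]
      rw [orth_polar]; exact hzv
    · obtain ⟨l, hl, el⟩ := exists_mem_dpre hsτ (σ := τ) (x := x)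
        (P := MulAction.stabilizer K us ⊓ MulAction.stabilizer K zn)
        (by rw [nb_pair_perfect h2 hQ h8 (show polar Q (Φ.b 4).1 z.1 = 0 from hz5 4 (by decide))]
            exact ⟨hxu, mem_stabilizer_nb.2 (mem_stabilizer_point.2 hxz)⟩)
      exact ⟨l, dpre_mono inf_le_right hl, el,
        lift_congr_of_trans hsτ hcτ (htrans us) hy (dpre_mono inf_le_left hl) (ey.trans el.symm)⟩

end Cfsg.Agent.H82.Orth
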