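import Cfsg.Agent.H82.Orth.OddMult
import Cfsg.Agent.H82.Orth.MinusThree

/-!
# Stem extensions of Omega of minus type in odd characteristic
-/

set_option autoImplicit false
set_option linter.unusedSectionVars false
set_option linter.unusedSimpArgs false

open QuadraticMap hiding sq
open scoped commutatorElement

namespace Cfsg.Agent.H82.Orth

open Cfsg.Agent.H5

universe u

theorem commutator_eq_top_of_stem {G : Type*} [Group G] (hG : commutator G = ⊤) {Γ : Type u} [Group Γ]
    {σ : Γ →* G} (hσ : Cfsg.IsStemExtension σ) : commutator Γ = ⊤ := by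
  refine eq_top_iff.2 fun g _ => ?_
  have hg : σ g ∈ (commutator Γ).map σ := by
    rw [Cfsg.Agent.H82.map_commutator_of_surjective hσ.1, hG]; exact Subgroup.mem_top _
  obtain ⟨g', hg', e⟩ := hg
  have : g * g'⁻¹ ∈ commutator Γ := hσ.2.2 (by rw [MonoidHom.mem_ker, map_mul, map_inv, e, mul_inv_cancel])
  simpa using mul_mem this hg'

theorem commutator_omega_eq_top {F V : Type*} [Field F] [AddCommGroup V] [Module F V] [FiniteDimensional F V]
    [Finite F] [Finite V] {Q : QuadraticForm F V} (hQ : (polarBilin Q).Nondegenerate)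
    (hn : 5 ≤ Module.finrank F V) : commutator (commutator (orth Q)) = ⊤ := by
  refine Subgroup.map_injective (Subgroup.subtype_injective _) ?_
  rw [Subgroup.map_subtype_commutator, commutator_perfect hQ hn, ← MonoidHom.range_eq_map, Subgroup.range_subtype]

/-- The orthogonal group does not change when the form is scaled. -/
def orthScale {F V : Type*} [Field F] [AddCommGroup V] [Module F V] (Q : QuadraticForm F V) {c : F} (hc : c ≠ 0) :
    orth Q ≃* orth (c • Q) where
  toFun g := ⟨(g : V ≃ₗ[F] V), fun x => by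
    simp only [QuadraticMap.smul_apply, orth_map]⟩
  invFun g := ⟨(g : V ≃ₗ[F] V), fun x => smul_right_injective F hc (g.2 x)⟩
  left_inv g := Subtype.ext rfl
  right_inv g := Subtype.ext rfl
  map_mul' g k := Subtype.ext rfl

variable {F : Type u} [Field F] [Fintype F]

/-- A vector of the eight-dimensional minus space from its coordinates. -/
def vec8 (x₀ x₁ x₂ y₀ y₁ y₂ z₀ z₁ : F) : (Fin 3 ⊕ Fin 3) ⊕ Fin 2 → F :=
  Sum.elim (Sum.elim ![x₀, x₁, x₂] ![y₀, y₁, y₂]) ![z₀, z₁]

theorem qMinus_vec8 (a b x₀ x₁ x₂ y₀ y₁ y₂ z₀ z₁ : F) :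
    qMinus 3 F a b (vec8 x₀ x₁ x₂ y₀ y₁ y₂ z₀ z₁) =
      x₀ * y₀ + x₁ * y₁ + x₂ * y₂ + (z₀ ^ 2 + a * z₀ * z₁ + b * z₁ ^ 2) := by
  rw [coe_qMinus]
  simp [Cfsg.quadFormMinus, vec8, Fin.sum_univ_three]

theorem polar_vec8 (a b : F) (x₀ x₁ x₂ y₀ y₁ y₂ z₀ z₁ x₀' x₁' x₂' y₀' y₁' y₂' z₀' z₁' : F) :
    polar (qMinus 3 F a b) (vec8 x₀ x₁ x₂ y₀ y₁ y₂ z₀ z₁) (vec8 x₀' x₁' x₂' y₀' y₁' y₂' z₀' z₁') =
      x₀ * y₀' + x₀' * y₀ + x₁ * y₁' + x₁' * y₁ + x₂ * y₂' + x₂' * y₂ +
        (2 * z₀ * z₀' + a * (z₀ * z₁' + z₁ * z₀') + 2 * b * z₁ * z₁') := by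
  have h : ∀ p q : (Fin 3 ⊕ Fin 3) ⊕ Fin 2 → F, polar (qMinus 3 F a b) p q =
      qMinus 3 F a b (p + q) - qMinus 3 F a b p - qMinus 3 F a b q := fun p q => rfl
  rw [h, coe_qMinus]
  simp [Cfsg.quadFormMinus, vec8, Fin.sum_univ_three]
  ring

theorem eq_of_mul_self_mem {a b : F} (h3 : Fintype.card F = 3)
    (hab : ∀ z₁ z₂ : F, z₁ ^ 2 + a * z₁ * z₂ + b * z₂ ^ 2 = 0 → z₁ = 0 ∧ z₂ = 0) :
    (3 : F) = 0 ∧ b + 2 * a ^ 2 = 1 := by
  classical
  have hc : (3 : F) = 0 := by
    have := FiniteField.cast_card_eq_zero F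
    rw [h3] at this
    exact_mod_cast this
  refine ⟨hc, ?_⟩
  have hall : ∀ x : F, x = 0 ∨ x = 1 ∨ x = 2 := by
    have h01 : (0 : F) ≠ 1 := zero_ne_one
    have h02 : (0 : F) ≠ 2 := fun h => one_ne_zero (α := F) (by linear_combination hc + h)
    have h12 : (1 : F) ≠ 2 := fun h => one_ne_zero (α := F) (by linear_combination -h)
    have hs : ({0, 1, 2} : Finset F) = Finset.univ :=
      Finset.eq_univ_of_card _ (by simp [h01, h02, h12, h3])
    intro x
    have := Finset.mem_univ x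
    rw [← hs] at this
    simpa using this
  rcases hall (b + 2 * a ^ 2) with h | h | h
  · exact absurd (hab a 1 (by linear_combination h)).2 one_ne_zero
  · exact h
  · exact absurd (hab (a + 1) 1 (by linear_combination h + (1 + a) * hc)).2 one_ne_zero

/-- The frame of the eight-dimensional minus space over three elements. -/
def frame8 {a b : F} (h3 : (3 : F) = 0) (hd : b + 2 * a ^ 2 = 1) : Frame (qMinus 3 F a b) where
  b := ![⟨vec8 0 0 0 0 0 0 1 0, by rw [qMinus_vec8]; ring⟩,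
    ⟨vec8 0 0 0 0 0 0 a 1, by rw [qMinus_vec8]; linear_combination hd⟩,
    ⟨vec8 1 0 0 1 0 0 0 0, by rw [qMinus_vec8]; ring⟩,
    ⟨vec8 0 1 0 0 1 0 0 0, by rw [qMinus_vec8]; ring⟩,
    ⟨vec8 1 1 0 (-1) (-1) 0 0 0, by rw [qMinus_vec8]; linear_combination -h3⟩,
    ⟨vec8 1 (-1) 0 (-1) 1 0 0 0, by rw [qMinus_vec8]; linear_combination -h3⟩]
  e := vec8 0 0 1 0 0 0 0 0
  f := vec8 0 0 0 0 0 1 0 0
  orth i j hij := by
    fin_cases i <;> fin_cases j <;> first
      | exact absurd rfl hij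
      | (simp [polar_vec8] <;> first | done | linear_combination a * h3)
  pair := ⟨by rw [qMinus_vec8]; ring, by rw [qMinus_vec8]; ring, by rw [polar_vec8]; ring⟩
  be i := by fin_cases i <;> simp [polar_vec8]
  bf i := by fin_cases i <;> simp [polar_vec8]

theorem stem_minus_eight_three {a b : F} (h3 : Fintype.card F = 3)
    (hab : ∀ z₁ z₂ : F, z₁ ^ 2 + a * z₁ * z₂ + b * z₂ ^ 2 = 0 → z₁ = 0 ∧ z₂ = 0) {Γ : Type u} [Group Γ] [Finite Γ]
    {σ : Γ →* commutator (orth (qMinus 3 F a b))} (hσ : Cfsg.IsStemExtension σ) : Nat.card σ.ker ≤ 2 := by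
  classical
  haveI : Finite ((Fin 3 ⊕ Fin 3) ⊕ Fin 2 → F) := Pi.finite
  obtain ⟨hc3, hd⟩ := eq_of_mul_self_mem h3 hab
  have h2 : (2 : F) ≠ 0 := fun h => one_ne_zero (α := F) (by linear_combination hc3 - h)
  have hQ := H5.qMinus_nondegenerate (F := F) 3 hab
  have hn : Module.finrank F ((Fin 3 ⊕ Fin 3) ⊕ Fin 2 → F) = 8 := by simp
  set Φ := frame8 (a := a) (b := b) hc3 hd
  have h01 : polar (qMinus 3 F a b) (Φ.b 0).1 (Φ.b 1).1 = 0 := Φ.orth 0 1 (by decide)
  have hle := ker_le_pair h2 hQ hn Φ hσ.1 hσ.2.1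
    (commutator_eq_top_of_stem (commutator_omega_eq_top hQ (by omega)) hσ)
  refine card_ker_le_of_le_dpre hσ.1 hσ.2.1 (pair_perfect' h2 hQ (by omega) h01) hle fun Δ _ _ τ hτ => ?_
  obtain ⟨-, hW, hWd⟩ := nondeg_span _ ((orthon_inf h2 hQ h01).regular h2)
  set W := Submodule.span F (Set.range ![(Φ.b 0).1, (Φ.b 1).1]) with hWdef
  set U := perp (qMinus 3 F a b) W with hU
  have hmem : ∀ y, y ∈ U ↔ y (.inr 0) = 0 ∧ y (.inr 1) = 0 := fun y => by
    have h0 : ∀ z₀ z₁ : F, polar (qMinus 3 F a b) (vec8 0 0 0 0 0 0 z₀ z₁) y =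
        2 * z₀ * y (.inr 0) + a * (z₀ * y (.inr 1) + z₁ * y (.inr 0)) + 2 * b * z₁ * y (.inr 1) := by
      intro z₀ z₁
      have : y = vec8 (y (.inl (.inl 0))) (y (.inl (.inl 1))) (y (.inl (.inl 2))) (y (.inl (.inr 0)))
          (y (.inl (.inr 1))) (y (.inl (.inr 2))) (y (.inr 0)) (y (.inr 1)) := by
        funext k
        rcases k with (k | k) | k <;> fin_cases k <;> rfl
      conv_lhs => rw [this, polar_vec8]
      ring
    constructor
    · intro h
      have e0 := mem_perp.1 h _ (Submodule.subset_span ⟨0, rfl⟩)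
      have e1 := mem_perp.1 h _ (Submodule.subset_span ⟨1, rfl⟩)
      simp [Φ, frame8, h0] at e0 e1
      have k1 : y (.inr 1) = 0 := by
        linear_combination (-1) * e1 + y (.inr 1) * hc3 + 2 * y (.inr 1) * hd -
          (a ^ 2 * y (.inr 1) - a * y (.inr 0)) * hc3
      refine ⟨?_, k1⟩
      rw [k1] at e0
      simpa [h2] using e0
    · rintro ⟨k0, k1⟩
      refine mem_perp.2 fun x hx => ?_
      obtain ⟨c, rfl⟩ := (Submodule.mem_span_range_iff_exists_fun F).1 hx
      simp [Fin.sum_univ_two, polar_add_left, polar_smul_left, Φ, frame8, h0, k0, k1]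
  let e : U ≃ₗ[F] (J 3 → F) :=
    { toFun := fun y => fun j => y.1 (.inl j)
      map_add' := fun _ _ => rfl
      map_smul' := fun _ _ => rfl
      invFun := fun x => ⟨Sum.elim x 0, (hmem _).2 ⟨rfl, rfl⟩⟩
      left_inv := fun y => Subtype.ext (funext fun k => by
        rcases k with j | j
        · rfl
        · fin_cases j
          · exact ((hmem y.1).1 y.2).1.symm
          · exact ((hmem y.1).1 y.2).2.symm)
      right_inv := fun x => rfl }
  have he : ∀ y, qPlus 3 F (e y) = ((qMinus 3 F a b).comp U.subtype) y := fun y => by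
    simp [coe_qPlus, coe_qMinus, Cfsg.quadFormPlus, Cfsg.quadFormMinus, ((hmem y.1).1 y.2).1,
      ((hmem y.1).1 y.2).2, e]
    rfl
  have hUd : Module.finrank F U = 6 := by
    rw [LinearEquiv.finrank_eq e]; simp
  obtain ⟨i⟩ := nonempty_fixSub_equiv hQ hW (by rw [← hU, hUd]; norm_num)
  obtain ⟨j⟩ := nonempty_commutator_congr (orthCongr e he)
  let k : ↥(MulAction.stabilizer (commutator (orth (qMinus 3 F a b))) (Φ.b 0) ⊓
      MulAction.stabilizer (commutator (orth (qMinus 3 F a b))) (Φ.b 1)) ≃*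
      commutator (orth (qPlus 3 F)) :=
    (MulEquiv.subgroupCongr (stabilizer_inf _ _)).trans (i.symm.trans j)
  have := stem_omega_plus_le (F := F) (m := 3) le_rfl (fun _ => by omega) (fun h => absurd h (by norm_num))
    (isStemExtension_comp_equiv hτ k)
  rwa [MonoidHom.ker_comp_of_injective _ _ k.injective] at this

/-- Stem extensions of Omega of minus type and odd characteristic. -/
theorem stem_omega_minus_le_odd (h2 : (2 : F) ≠ 0) {m : ℕ} (hm : 3 ≤ m) {a b : F}
    (hab : ∀ z₁ z₂ : F, z₁ ^ 2 + a * z₁ * z₂ + b * z₂ ^ 2 = 0 → z₁ = 0 ∧ z₂ = 0) {Γ : Type u} [Group Γ] [Finite Γ]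
    {σ : Γ →* commutator (orth (qMinus m F a b))} (hσ : Cfsg.IsStemExtension σ) : Nat.card σ.ker ≤ 2 := by
  classical
  haveI : Finite ((Fin m ⊕ Fin m) ⊕ Fin 2 → F) := Pi.finite
  by_cases h33 : m = 3 ∧ Fintype.card F = 3
  · obtain ⟨rfl, h3⟩ := h33
    exact stem_minus_eight_three h3 hab hσ
  have hQ := H5.qMinus_nondegenerate (F := F) m hab
  have hn : Module.finrank F ((Fin m ⊕ Fin m) ⊕ Fin 2 → F) = 2 * m + 2 := by simp; omega
  let v₀ : Pt (qMinus m F a b) := ⟨Pi.single (.inr 0) 1, by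
    simp [coe_qMinus, Cfsg.quadFormMinus, Pi.single_apply]⟩
  have hle := ker_le_point_eight h2 hQ (by omega) hσ.1 hσ.2.1
    (commutator_eq_top_of_stem (commutator_omega_eq_top hQ (by omega)) hσ) v₀
  refine card_ker_le_of_le_dpre hσ.1 hσ.2.1 (point_perfect' h2 hQ (by omega) v₀) hle fun Δ _ _ τ hτ => ?_
  obtain ⟨-, hW, -⟩ := nondeg_span _ ((orthon_one v₀).regular h2)
  rw [show Set.range ![v₀.1] = {v₀.1} by rw [← Matrix.range_cons_empty v₀.1 ![]]] at hW
  set U := perp (qMinus m F a b) (Submodule.span F {v₀.1}) with hU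
  have hmem : ∀ y, y ∈ U ↔ 2 * y (.inr 0) + a * y (.inr 1) = 0 := fun y => by
    rw [hU, mem_perp_span, show v₀.1 = Pi.single (.inr 0) 1 from rfl, polar_qMinus]
    simp [Pi.single_apply]
  set d := b - a ^ 2 / 4 with hd
  have h4 : (4 : F) ≠ 0 := by
    rw [show (4 : F) = 2 * 2 by norm_num]; exact mul_ne_zero h2 h2
  have hd0 : d ≠ 0 := by
    intro h
    refine four_mul_sub_ne_zero hab ?_
    rw [hd] at h
    field_simp at h
    linear_combination h
  let e : U ≃ₗ[F] (Unit ⊕ (Fin m ⊕ Fin m) → F) :=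
    { toFun := fun y => Sum.elim (fun _ => y.1 (.inr 1))
        (Sum.elim (fun i => y.1 (.inl (.inl i))) fun i => d⁻¹ * y.1 (.inl (.inr i)))
      map_add' := fun y z => funext fun k => by rcases k with ⟨⟩ | i | i <;> simp [mul_add]
      map_smul' := fun c y => funext fun k => by rcases k with ⟨⟩ | i | i <;> simp [mul_left_comm]
      invFun := fun x => ⟨Sum.elim (Sum.elim (fun i => x (.inr (.inl i))) fun i => d * x (.inr (.inr i)))
          ![-(a / 2) * x (.inl ()), x (.inl ())], (hmem _).2 (by simp; field_simp; ring)⟩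
      left_inv := fun y => Subtype.ext (funext fun k => by
        rcases k with (i | i) | i
        · simp
        · simp [mul_inv_cancel_left₀ hd0]
        · fin_cases i
          · simp only [Sum.elim_inr, Sum.elim_inl]
            show -(a / 2) * y.1 (.inr 1) = y.1 (.inr 0)
            have := (hmem y.1).1 y.2
            field_simp
            linear_combination -this
          · rfl)
      right_inv := fun x => funext fun k => by rcases k with ⟨⟩ | i | i <;> simp [inv_mul_cancel_left₀ hd0] }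
  have he : ∀ y, qOdd m F (e y) = (d⁻¹ • (qMinus m F a b).comp U.subtype) y := fun y => by
    have h0 : y.1 (.inr 0) = -(a / 2) * y.1 (.inr 1) := by
      have := (hmem y.1).1 y.2
      field_simp
      linear_combination this
    have hz : (y.1 (.inr 1)) ^ 2 = d⁻¹ * ((y.1 (.inr 0)) ^ 2 + a * y.1 (.inr 0) * y.1 (.inr 1) +
        b * (y.1 (.inr 1)) ^ 2) := by
      rw [eq_inv_mul_iff_mul_eq₀ hd0, h0, hd]
      field_simp
      ring
    rw [QuadraticMap.smul_apply, QuadraticMap.comp_apply, coe_qOdd, coe_qMinus, smul_eq_mul,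
      Cfsg.quadFormMinus, mul_add, Submodule.coe_subtype, ← hz, Finset.mul_sum, add_comm]
    simp only [Cfsg.quadFormOdd, e, LinearEquiv.coe_mk, LinearMap.coe_mk, AddHom.coe_mk, Sum.elim_inl, Sum.elim_inr,
      Submodule.coe_subtype]
    congr 1
    exact Finset.sum_congr rfl fun i _ => mul_left_comm _ _ _
  have hUd : Module.finrank F U = 2 * m + 1 := by
    rw [LinearEquiv.finrank_eq e]; simp; omega
  obtain ⟨i⟩ := nonempty_fixSub_equiv hQ hW (by rw [← hU, hUd]; omega)
  obtain ⟨j⟩ := nonempty_commutator_congr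
    ((orthScale ((qMinus m F a b).comp U.subtype) (inv_ne_zero hd0)).trans (orthCongr e he))
  let k : MulAction.stabilizer (commutator (orth (qMinus m F a b))) v₀ ≃* commutator (orth (qOdd m F)) :=
    (MulEquiv.subgroupCongr (stabilizer_point v₀)).trans (i.symm.trans j)
  have := stem_omega_odd_le h2 hm (fun h h3 => h33 ⟨h, h3⟩) (isStemExtension_comp_equiv hτ k)
  rwa [MonoidHom.ker_comp_of_injective _ _ k.injective] at this

end Cfsg.Agent.H82.Orth
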