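import Cfsg.Agent.H82.Orth.EvenPoint
import Cfsg.Agent.H82.Orth.SpSixBound
import Cfsg.Agent.H82.Orth.LiftAut
import Cfsg.Agent.H82.Orth.MinusOdd
import Cfsg.Agent.H82.Sp.Mult

/-!
# Stem extensions of Omega of minus type in characteristic two are trivial
-/

set_option autoImplicit false
set_option linter.unusedSectionVars false
set_option linter.unusedSimpArgs false
set_option maxHeartbeats 1000000

open QuadraticMap hiding sq
open scoped commutatorElement Matrix

namespace Cfsg.Agent.H82.Orth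

open Cfsg.Agent.H5 Cfsg.Agent.H82.Sp
open Cfsg.Agent.H2 (transv)

universe u

variable {F : Type u} [Field F] [Fintype F] {m : ℕ} {a b : F}
variable (h2 : (2 : F) = 0) (hab : ∀ z₁ z₂ : F, z₁ ^ 2 + a * z₁ * z₂ + b * z₂ ^ 2 = 0 → z₁ = 0 ∧ z₂ = 0)

include h2 hab

/-- The preimage of a transvection in the point stabiliser. -/
theorem exists_refl_pair (hm : 3 ≤ m) (w : Vec m F) :
    ∃ W : Pt (qMinus m F a b), polar (qMinus m F a b) (mv₀ m a b).1 W.1 = 0 ∧ mpr W.1 = w ∧
      ∃ g : MulAction.stabilizer (commutator (orth (qMinus m F a b))) (mv₀ m a b),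
        (((g : commutator (orth (qMinus m F a b))) : orth (qMinus m F a b)) =
          refl (qMinus m F a b) (mv₀ m a b).1 * refl (qMinus m F a b) W.1) ∧
        spHom h2 hab g = transv w 1 := by
  classical
  haveI : Finite (MSp m F) := Pi.finite
  have hQ := H5.qMinus_nondegenerate (F := F) m hab
  have hn := finrank_msp (a := a) (b := b) h2 hab hm
  obtain ⟨t, ht⟩ := isSquare_of_two_eq_zero h2 (1 + qMinus m F a b (miota w))
  have hW1 : qMinus m F a b (miota w + t • (mv₀ m a b).1) = 1 := by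
    rw [QuadraticMap.map_add (⇑(qMinus m F a b)), QuadraticMap.map_smul, (mv₀ m a b).2, polar_smul_right,
      polar_comm (⇑(qMinus m F a b)) (miota w), polar_miota_mv₀ h2, smul_zero, smul_eq_mul, mul_one, ← ht, add_zero]
    linear_combination qMinus m F a b (miota w) * h2
  obtain ⟨W, hW⟩ : ∃ W : Pt (qMinus m F a b), W.1 = miota w + t • (mv₀ m a b).1 := ⟨⟨_, hW1⟩, rfl⟩
  have hWv : polar (qMinus m F a b) (mv₀ m a b).1 W.1 = 0 := by
    rw [hW, polar_add_right, polar_miota_mv₀ h2, polar_smul_right, polar_self_two h2, smul_zero, add_zero]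
  have hWm : mpr W.1 = w := by rw [hW]; funext j; simp [mpr, miota, mv₀]
  have hmem : refl (qMinus m F a b) (mv₀ m a b).1 * refl (qMinus m F a b) W.1 ∈
      commutator (orth (qMinus m F a b)) := by
    have := (list_prod_mem_commutator_iff hQ (Or.inr (by omega)) (vs := [(mv₀ m a b).1, W.1])
      (by intro x hx; simp at hx; rcases hx with rfl | rfl <;> simp [(mv₀ m a b).2, W.2])).2
      ⟨⟨1, rfl⟩, isSquare_of_two_eq_zero h2 _⟩
    simpa using this
  have hfix : ((refl (qMinus m F a b) (mv₀ m a b).1 * refl (qMinus m F a b) W.1 : orth (qMinus m F a b)) :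
      MSp m F ≃ₗ[F] MSp m F) (mv₀ m a b).1 = (mv₀ m a b).1 := by
    rw [orth_mul_apply, refl_apply_of_ortho (v := W.1) (x := (mv₀ m a b).1) (by rw [polar_comm]; exact hWv),
      refl_apply_self (by rw [(mv₀ m a b).2]; exact one_ne_zero)]
    exact neg_eq_of_add_eq_zero_left (add_self_two h2 _)
  refine ⟨W, hWv, hWm, ⟨⟨_, hmem⟩, mem_stabilizer_point.2 hfix⟩, rfl, grp_ext fun x => ?_⟩
  conv_lhs => rw [show x = mpr (miota (F := F) x) from rfl, act_spHom h2 hab _ (polar_miota_mv₀ h2 x)]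
  have hWx : polar (qMinus m F a b) W.1 (miota x) = B x w := by
    rw [polar_comm, polar_of_perp h2 hab (polar_miota_mv₀ h2 x) hWv, hWm]
    rfl
  rw [act_transv, orth_mul_apply, refl_apply, refl_apply, W.2, (mv₀ m a b).2, hWx, inv_one, one_mul, one_mul]
  funext j
  have hj : W.1 (Sum.inl j) = w j := congrFun hWm j
  have hv : (mv₀ m a b).1 (Sum.inl j) = 0 := by simp [mv₀]
  simp [mpr, miota, hj, hv, sub_eq_add_neg]
  linear_combination (-(B x w) * w j) * h2

/-- The bound from the point stabiliser. -/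
theorem card_ker_le_of_sp {n : ℕ} (hm : 3 ≤ m)
    (hn : ∀ (Δ : Type u) [Group Δ] [Finite Δ] (τ : Δ →* Grp m F), Cfsg.IsStemExtension τ → Nat.card τ.ker ≤ n)
    {Γ : Type u} [Group Γ] [Finite Γ] {σ : Γ →* commutator (orth (qMinus m F a b))}
    (hσ : Cfsg.IsStemExtension σ) : Nat.card σ.ker ≤ n := by
  haveI : Finite (MSp m F) := Pi.finite
  have hQ := H5.qMinus_nondegenerate (F := F) m hab
  have hle := ker_le_point_even h2 hab hm hσ.1 hσ.2.1
    (commutator_eq_top_of_stem (commutator_omega_eq_top hQ (by rw [finrank_msp h2 hab hm]; omega)) hσ)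
  refine card_ker_le_of_le_dpre hσ.1 hσ.2.1 (point_perfect_even h2 hab hm) hle fun Δ _ _ τ hτ => ?_
  obtain ⟨k⟩ : Nonempty (MulAction.stabilizer (commutator (orth (qMinus m F a b))) (mv₀ m a b) ≃* Grp m F) :=
    ⟨spEquiv h2 hab (by omega)⟩
  have := hn Δ _ (isStemExtension_comp_equiv hτ k)
  rwa [MonoidHom.ker_comp_of_injective _ _ k.injective] at this

/-- The eight-dimensional group over two elements. -/
theorem stem_minus_eight_two (hF : Fintype.card F = 2) {Γ : Type u} [Group Γ] [Finite Γ]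
    {σ : Γ →* commutator (orth (qMinus 3 F a b))} (hσ : Cfsg.IsStemExtension σ) : Nat.card σ.ker ≤ 1 := by
  classical
  haveI : CharP F 2 := charP_of_card_eq_prime hF
  have hF' : Nat.card F = 2 := by rw [Nat.card_eq_fintype_card, hF]
  haveI : Finite (MSp 3 F) := Pi.finite
  have hQ := H5.qMinus_nondegenerate (F := F) 3 hab
  have hn : Module.finrank F (MSp 3 F) = 8 := by simp
  have hZ : Subgroup.center (Grp 3 F) = ⊥ := by
    refine Subgroup.eq_bot_of_card_eq _ ?_
    rw [H2.card_center_sp (by norm_num), hF']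
    rfl
  obtain ⟨π, hπ⟩ : ∃ π : Grp 3 F ≃* Cfsg.PSp 3 F, ∀ x, π x = QuotientGroup.mk' _ x :=
    ⟨MulEquiv.ofBijective (QuotientGroup.mk' (Subgroup.center (Grp 3 F)))
      ⟨by rw [← MonoidHom.ker_eq_bot_iff, QuotientGroup.ker_mk', hZ], QuotientGroup.mk'_surjective _⟩, fun _ => rfl⟩
  have hSp2 : ∀ (Δ : Type u) [Group Δ] [Finite Δ] (τ : Δ →* Grp 3 F), Cfsg.IsStemExtension τ →
      Nat.card τ.ker ≤ 2 := fun Δ _ _ τ hτ => by
    have := H14.Sp6.card_ker_le_two hF' (isStemExtension_comp_equiv hτ π)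
    rwa [MonoidHom.ker_comp_of_injective _ _ π.injective] at this
  have hb2 : ∀ {Δ : Type u} [Group Δ] [Finite Δ] {τ : Δ →* commutator (orth (qMinus 3 F a b))},
      Cfsg.IsStemExtension τ → Nat.card τ.ker ≤ 2 := fun hτ => card_ker_le_of_sp h2 hab le_rfl hSp2 hτ
  by_contra hcon
  have hcard : Nat.card σ.ker = 2 := by have := hb2 hσ; omega
  have hperf : commutator Γ = ⊤ :=
    commutator_eq_top_of_stem (commutator_omega_eq_top hQ (by omega)) hσ
  have hle := ker_le_point_even h2 hab le_rfl hσ.1 hσ.2.1 hperf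
  -- automorphisms from reflections
  have hlift : ∀ p : Pt (qMinus 3 F a b), ∃ ψ : Γ →* Γ, ∀ x,
      ((σ (ψ x) : commutator (orth (qMinus 3 F a b))) : orth (qMinus 3 F a b)) =
        refl (qMinus 3 F a b) p.1 * (σ x : orth (qMinus 3 F a b)) * (refl (qMinus 3 F a b) p.1)⁻¹ := fun p => by
    obtain ⟨ψ, hψ⟩ := exists_lift_of_bound hσ hperf (fun Δ _ _ τ hτ => (hb2 hτ).trans hcard.ge)
      (MulAut.conjNormal (refl (qMinus 3 F a b) p.1))
    exact ⟨ψ, fun x => by rw [hψ, MulAut.conjNormal_apply]⟩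
  choose ψ hψ using hlift
  have hfix : ∀ (p : Pt (qMinus 3 F a b)) (x : Γ),
      σ x ∈ MulAction.stabilizer (commutator (orth (qMinus 3 F a b))) p → ψ p x = x := by
    intro p x hx
    set S := MulAction.stabilizer (commutator (orth (qMinus 3 F a b))) p with hS
    have hperfS : ⁅S, S⁆ = S := stab_perfect_even h2 hab le_rfl p
    have hxS : x ∈ dpre σ S := by
      rw [← hperfS] at hx
      obtain ⟨y, hy, e⟩ := exists_mem_dpre hσ.1 hx
      have hk : y⁻¹ * x ∈ σ.ker := by rw [MonoidHom.mem_ker, map_mul, map_inv, e, inv_mul_cancel]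
      have := mul_mem hy (ker_mem_dpre_of_trans hσ.1 hσ.2.1 (trans_even h2 hab le_rfl p (mv₀ 3 a b)) hk (hle hk))
      rwa [mul_inv_cancel_left] at this
    refine lift_fixes_dpre hσ.1 hσ.2.1 hperfS (ψ p) (MulAut.conjNormal (refl (qMinus 3 F a b) p.1))
      (fun y => Subtype.ext ((hψ p y).trans (MulAut.conjNormal_apply _ _).symm)) (fun g hg => Subtype.ext ?_) hxS
    rw [MulAut.conjNormal_apply, mul_inv_eq_iff_eq_mul]
    have h := refl_conj (g : orth (qMinus 3 F a b)) p.1
    rw [mem_stabilizer_point.1 hg, mul_inv_eq_iff_eq_mul] at h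
    exact h.symm
  -- two commuting transvections
  obtain ⟨W₀, hW₀v, hW₀m, g₀, hg₀, hg₀t⟩ :=
    exists_refl_pair h2 hab (m := 3) le_rfl (H14.Sp6.bitVec F (H14.Sp6.rootVec 0))
  obtain ⟨W₁, hW₁v, hW₁m, g₁, hg₁, hg₁t⟩ :=
    exists_refl_pair h2 hab (m := 3) le_rfl (H14.Sp6.bitVec F (H14.Sp6.rootVec 1))
  have hW01 : polar (qMinus 3 F a b) W₀.1 W₁.1 = 0 := by
    rw [polar_of_perp h2 hab hW₀v hW₁v, hW₀m, hW₁m, B_eq, H14.Sp6.sympForm_bitVec,
      show H14.Sp6.formNat (H14.Sp6.rootVec 0) (H14.Sp6.rootVec 1) = 0 by decide, Nat.cast_zero]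
  have hkey : ∀ X Y : Γ, σ X = (g₀ : commutator (orth (qMinus 3 F a b))) →
      σ Y = (g₁ : commutator (orth (qMinus 3 F a b))) → Commute X Y := by
    intro X Y hX hY
    have hconj : (ψ (mv₀ 3 a b)).comp (ψ W₀) = (MulAut.conj X).toMonoidHom := by
      refine hom_ext_of_perfect hσ.2.1 hperf _ _ fun t => Subtype.ext ?_
      show ((σ (ψ (mv₀ 3 a b) (ψ W₀ t)) : commutator (orth (qMinus 3 F a b))) : orth (qMinus 3 F a b)) =
        ((σ (X * t * X⁻¹) : commutator (orth (qMinus 3 F a b))) : orth (qMinus 3 F a b))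
      rw [hψ, hψ, map_mul, map_mul, map_inv, hX, Subgroup.coe_mul, Subgroup.coe_mul, Subgroup.coe_inv, hg₀]
      group
    have hY0 : ψ (mv₀ 3 a b) Y = Y := hfix _ _ (hY ▸ g₁.2)
    have hYW : ψ W₀ Y = Y := hfix _ _ (hY ▸ mem_stabilizer_point.2 (by
      rw [hg₁, orth_mul_apply, refl_apply_of_ortho (v := W₁.1) (x := W₀.1) (by rw [polar_comm]; exact hW01),
        refl_apply_of_ortho hW₀v]))
    have := DFunLike.congr_fun hconj Y
    rw [MonoidHom.comp_apply, hYW, hY0] at this
    exact (mul_inv_eq_iff_eq_mul.1 this.symm)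
  have hKp : ⁅(MulAction.stabilizer (commutator (orth (qMinus 3 F a b))) (mv₀ 3 a b)), (MulAction.stabilizer (commutator (orth (qMinus 3 F a b))) (mv₀ 3 a b))⁆ = (MulAction.stabilizer (commutator (orth (qMinus 3 F a b))) (mv₀ 3 a b)) := point_perfect_even h2 hab le_rfl
  refine hcon (card_ker_le_of_le_dpre hσ.1 hσ.2.1 hKp hle fun Δ _ _ τ hτ => ?_)
  -- transport the commuting lifts to any stem extension of the stabiliser with kernel of order two
  by_contra hτc
  obtain ⟨k, hk⟩ : ∃ k : (MulAction.stabilizer (commutator (orth (qMinus 3 F a b))) (mv₀ 3 a b)) ≃* Cfsg.PSp 3 F, ∀ g, k g = π (spHom h2 hab g) :=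
    ⟨(spEquiv (a := a) (b := b) h2 hab (m := 3) (by norm_num)).trans π, fun _ => rfl⟩
  have hres : Cfsg.IsStemExtension (dres σ (MulAction.stabilizer (commutator (orth (qMinus 3 F a b))) (mv₀ 3 a b))) :=
    ⟨dres_surjective hσ.1 hKp, dres_ker_le_center hσ.2.1 (MulAction.stabilizer (commutator (orth (qMinus 3 F a b))) (mv₀ 3 a b)),
      by rw [dres_commutator_eq_top hσ.1 hσ.2.1 hKp]; exact le_top⟩
  have h1 := SpSix.card_ker_le_one_of_commute hF' (isStemExtension_comp_equiv hres k) fun X Y hX hY => by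
    have hgen : ∀ i, H14.Sp6.pspHom F (CoxeterMatrix.E₇.simple i) =
        π (transv (H14.Sp6.bitVec F (H14.Sp6.rootVec i)) 1) := fun i => by
      rw [hπ]
      show QuotientGroup.mk' _ (H14.Sp6.spHom F _) = _
      rw [H14.Sp6.spHom, H14.Sp6.lift7_simple]
      rfl
    have hX' : dres σ (MulAction.stabilizer (commutator (orth (qMinus 3 F a b))) (mv₀ 3 a b)) X = g₀ :=
      k.injective (hX.trans ((hgen 0).trans ((congrArg π hg₀t.symm).trans (hk g₀).symm)))
    have hY' : dres σ (MulAction.stabilizer (commutator (orth (qMinus 3 F a b))) (mv₀ 3 a b)) Y = g₁ :=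
      k.injective (hY.trans ((hgen 1).trans ((congrArg π hg₁t.symm).trans (hk g₁).symm)))
    exact Subtype.ext (hkey X Y (congrArg Subtype.val hX') (congrArg Subtype.val hY')).eq
  rw [MonoidHom.ker_comp_of_injective _ _ k.injective] at h1
  have h2' : Nat.card σ.ker ≤ 1 := by
    refine le_trans (le_of_eq ?_) h1
    exact Nat.card_congr ⟨fun z => ⟨⟨z, hle z.2⟩, mem_ker_dres.2 z.2⟩, fun z => ⟨z.1.1, mem_ker_dres.1 z.2⟩,
      fun z => rfl, fun z => rfl⟩
  omega

/-- Stem extensions of Omega of minus type in characteristic two. -/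
theorem stem_omega_minus_le_even (hm : 3 ≤ m) {Γ : Type u} [Group Γ] [Finite Γ]
    {σ : Γ →* commutator (orth (qMinus m F a b))} (hσ : Cfsg.IsStemExtension σ) : Nat.card σ.ker ≤ 1 := by
  classical
  by_cases h32 : m = 3 ∧ Fintype.card F = 2
  · obtain ⟨rfl, hF⟩ := h32
    exact stem_minus_eight_two h2 hab hF hσ
  have hq : 2 ≤ Fintype.card F := Fintype.one_lt_card
  have hodd : Fintype.card F % 2 = 0 := card_even h2
  have hcond : Sp.Cond m F := by
    rcases Nat.lt_or_ge (Fintype.card F) 4 with h | h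
    · exact Or.inr (Or.inr ⟨by omega, by omega⟩)
    · exact Or.inl ⟨by omega, h⟩
  refine card_ker_le_of_sp h2 hab hm (fun Δ _ _ τ hτ => ?_) hσ
  haveI : Finite (Grp m F) := Finite.of_surjective τ hτ.1
  have hinj := (hasCyclicSchurMultiplier_one_iff (G := Grp m F)).1 (Sp.hasCyclicSchurMultiplier_one hcond) Δ τ hτ
  exact le_of_eq (by rw [(MonoidHom.ker_eq_bot_iff τ).2 hinj]; exact Subgroup.card_bot)

end Cfsg.Agent.H82.Orth
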