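import Cfsg.Agent.H82.Orth.OddMult
import Cfsg.Agent.H82.Orth.Mult
import Cfsg.Agent.H82.Orth.LiftAut

/-!
# Stem extensions of Omega of minus type from the hyperbolic cover
-/

set_option autoImplicit false
set_option linter.unusedSectionVars false
set_option linter.unusedSimpArgs false

open QuadraticMap hiding sq
open scoped commutatorElement

namespace Cfsg.Agent.H82.Orth

open Cfsg.Agent.H5

universe u v w

/-- The perfect preimage of a perfect subgroup is a stem extension of it. -/
theorem exists_stem_dpre {Γ : Type u} [Group Γ] {G : Type v} [Group G] {π : Γ →* G} (hs : Function.Surjective π)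
    (hc : π.ker ≤ Subgroup.center Γ) {P : Subgroup G} (hP : ⁅P, P⁆ = P) :
    ∃ τ : dpre π P →* P, Cfsg.IsStemExtension τ ∧ commutator (dpre π P) = ⊤ ∧ ∀ x, (τ x : G) = π x := by
  let τ : dpre π P →* P := (π.comp (dpre π P).subtype).codRestrict P fun x => dpre_le_comap (σ := π) P x.2
  have htop : commutator (dpre π P) = ⊤ := by
    refine Subgroup.map_injective (Subgroup.subtype_injective _) ?_
    rw [Subgroup.map_subtype_commutator, dpre_commutator hs hc hP, ← MonoidHom.range_eq_map, Subgroup.range_subtype]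
  refine ⟨τ, ⟨fun x => ?_, fun x hx => ?_, by rw [htop]; exact le_top⟩, htop, fun x => rfl⟩
  · obtain ⟨y, hy, ey⟩ := exists_mem_dpre hs (σ := π) (x := (x : G)) (P := P) (by rw [hP]; exact x.2)
    exact ⟨⟨y, hy⟩, Subtype.ext ey⟩
  · rw [Subgroup.mem_center_iff]
    exact fun y => Subtype.ext (Subgroup.mem_center_iff.1 (hc (congrArg Subtype.val (MonoidHom.mem_ker.1 hx))) _)

/-- A perfect stem extension stays stem over the quotient by the centre. -/
theorem isStemExtension_center_quotient {Γ : Type u} [Group Γ] {G : Type v} [Group G] {σ : Γ →* G}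
    (hσ : Cfsg.IsStemExtension σ) (hperf : commutator Γ = ⊤) :
    Cfsg.IsStemExtension ((QuotientGroup.mk' (Subgroup.center G)).comp σ) := by
  refine ⟨(QuotientGroup.mk'_surjective _).comp hσ.1, fun x hx => ?_, by rw [hperf]; exact le_top⟩
  have hσx : σ x ∈ Subgroup.center G := by
    rw [← QuotientGroup.ker_mk' (Subgroup.center G)]; exact hx
  rw [Subgroup.mem_center_iff]
  intro y
  have hf : ∀ y, ⁅x, y⁆ ∈ Subgroup.center Γ := fun y => hσ.2.1 (by
    rw [MonoidHom.mem_ker, map_commutatorElement, commutatorElement_eq_one_iff_commute]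
    exact (Subgroup.mem_center_iff.1 hσx (σ y)).symm)
  have := Cfsg.Agent.H82.Chev.eq_one_of_perfect hperf (fun y => ⁅x, y⁆) hf (fun a b => by
    rw [show ⁅x, a * b⁆ = ⁅x, a⁆ * (a * ⁅x, b⁆ * a⁻¹) by simp only [commutatorElement_def]; group,
      Subgroup.mem_center_iff.1 (hf b) a, mul_inv_cancel_right]) y
  exact (commutatorElement_eq_one_iff_commute.1 this).symm

/-- Stem extensions of a central quotient. -/
theorem stem_card_ker_le_mul {S : Type u} [Group S] [Finite S] {P : Type v} [Group P] (hperf : commutator S = ⊤)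
    {n : ℕ} (hb : ∀ (Δ : Type u) [Group Δ] [Finite Δ] (τ : Δ →* S), Cfsg.IsStemExtension τ → Nat.card τ.ker ≤ n)
    {π : S →* P} (hπ : Function.Surjective π) {Δ : Type u} [Group Δ] [Finite Δ] {τ : Δ →* P}
    (hτ : Cfsg.IsStemExtension τ) : Nat.card τ.ker ≤ n * Nat.card π.ker := by
  let K : Subgroup (Δ × S) := MonoidHom.eqLocus (τ.comp (MonoidHom.fst Δ S)) (π.comp (MonoidHom.snd Δ S))
  let pS : K →* S := (MonoidHom.snd Δ S).comp K.subtype
  let pΔ : K →* Δ := (MonoidHom.fst Δ S).comp K.subtype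
  have hsurj : Function.Surjective pS := fun s => by
    obtain ⟨d, hd⟩ := hτ.1 (π s)
    exact ⟨⟨(d, s), hd⟩, rfl⟩
  have hc : pS.ker ≤ Subgroup.center K := by
    rintro ⟨⟨d, s⟩, hmem⟩ hk
    have hs : s = 1 := hk
    subst hs
    have hd : d ∈ τ.ker := (hmem : τ d = π 1).trans (map_one π)
    rw [Subgroup.mem_center_iff]
    rintro ⟨⟨d', s'⟩, -⟩
    refine Subtype.ext (Prod.ext ?_ ?_)
    · exact Subgroup.mem_center_iff.mp (hτ.2.1 hd) d'
    · exact (mul_one s').trans (one_mul s').symm
  let σ : commutator K →* S := pS.comp (commutator K).subtype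
  have hσs : Function.Surjective σ := fun s => by
    have hs : s ∈ (commutator K).map pS := by
      rw [Cfsg.Agent.H82.map_commutator_of_surjective hsurj, hperf]
      exact Subgroup.mem_top s
    obtain ⟨x, hx, hxs⟩ := hs
    exact ⟨⟨x, hx⟩, hxs⟩
  have hDD : commutator (commutator K) = ⊤ := by
    refine Subgroup.map_injective (Subgroup.subtype_injective _) ?_
    rw [Subgroup.map_subtype_commutator, ← MonoidHom.range_eq_map, Subgroup.range_subtype]
    refine le_antisymm (Subgroup.commutator_le_self _)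
      (Cfsg.Agent.H82.commutator_le_of_forall_exists_center _ fun x => ?_)
    obtain ⟨y, hy⟩ := hσs (pS x)
    exact ⟨y, y.2, hc (by rw [MonoidHom.mem_ker, map_mul, map_inv, show pS (y : K) = pS x from hy, inv_mul_cancel])⟩
  have hσ : Cfsg.IsStemExtension σ := by
    refine ⟨hσs, fun d hd => ?_, by rw [hDD]; exact le_top⟩
    rw [Subgroup.mem_center_iff]
    exact fun e => Subtype.ext (Subgroup.mem_center_iff.1 (hc hd) _)
  haveI : Finite K := inferInstance
  let f : commutator K →* Δ := pΔ.comp (commutator K).subtype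
  have hfs : Function.Surjective f := Cfsg.Agent.H82.surjective_of_stem hτ f (by
    intro p
    obtain ⟨s, rfl⟩ := hπ p
    obtain ⟨d, hd⟩ := hσs s
    exact ⟨d, ((d : K).2).trans (congrArg π hd)⟩)
  haveI : Finite P := Finite.of_surjective π hπ
  have h1 := Nat.card_le_card_of_surjective f hfs
  have h2 := hb _ σ hσ
  rw [Subgroup.card_eq_card_quotient_mul_card_subgroup τ.ker,
    Nat.card_congr (QuotientGroup.quotientKerEquivOfSurjective τ hτ.1).toEquiv,
    Subgroup.card_eq_card_quotient_mul_card_subgroup σ.ker,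
    Nat.card_congr (QuotientGroup.quotientKerEquivOfSurjective σ hσ.1).toEquiv] at h1
  have hS : Nat.card S = Nat.card P * Nat.card π.ker := by
    rw [Subgroup.card_eq_card_quotient_mul_card_subgroup π.ker,
      Nat.card_congr (QuotientGroup.quotientKerEquivOfSurjective π hπ).toEquiv]
  rw [hS] at h1
  refine Nat.le_of_mul_le_mul_left (h1.trans ?_) Nat.card_pos
  calc Nat.card P * Nat.card π.ker * Nat.card σ.ker ≤ Nat.card P * Nat.card π.ker * n := Nat.mul_le_mul_left _ h2
    _ = Nat.card P * (n * Nat.card π.ker) := by ring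

section Swap

variable {m : ℕ} {F : Type u} [Field F] [Fintype F] {E : Type v} [Group E] {π : E →* orth (qPlus m F)}
variable {L : J m → J m → F → E} (S : Sys π L)

include S

/-- The element exchanging two weights with their opposites squares to the central element. -/
theorem exists_flip {a b : J m} (h : D a b) :
    ∃ n : E, n * n = zeta L a b ∧
      (∀ g : E, Mono (π g) → img (π g) a = (1 : F) • e a → img (π g) b = (1 : F) • e b → Commute g n) ∧
      img (π n) a = (-1 : F) • e (bar a) ∧ img (π n) (bar a) = (-1 : F) • e a ∧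
      img (π n) b = (-1 : F) • e (bar b) ∧ img (π n) (bar b) = (-1 : F) • e b ∧
      ∀ c, D c a → D c b → img (π n) c = (1 : F) • e c := by
  have o1 : (1 : F) ≠ 0 := one_ne_zero
  have h' := h.bar_right
  set A := nn L a b (1 : F) with hA
  set B := nn L a (bar b) (1 : F) with hB
  have gA1 : img (π A) a = (-1 : F) • e b := by
    rw [hA, map_nn S h]; simpa using img_nT_left h o1
  have gA2 : img (π A) (bar b) = (1 : F) • e (bar a) := by
    rw [hA, map_nn S h]; simpa using img_nT_bar_right h o1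
  have gA3 : img (π A) b = (1 : F) • e a := by
    rw [hA, map_nn S h]; exact img_nT_right h o1
  have mA : Mono (π A) := mono_nn S h o1
  have gA4 : img (π A) (bar a) = (-1 : F) • e (bar b) := by
    simpa [inv_neg] using img_bar mA gA1
  have mB : Mono (π B) := mono_nn S h' o1
  have gB1 : img (π B) a = (-1 : F) • e (bar b) := by
    rw [hB, map_nn S h']; simpa using img_nT_left h' o1
  have gB2 : img (π B) (bar b) = (1 : F) • e a := by
    rw [hB, map_nn S h']; exact img_nT_right h' o1
  have gB3 : img (π B) b = (1 : F) • e (bar a) := by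
    simpa using img_bar mB gB2
  have gB4 : img (π B) (bar a) = (-1 : F) • e b := by
    simpa [inv_neg] using img_bar mB gB1
  have hcomm : A * B * A⁻¹ = B := by
    rw [hB, nn_conj S mA h' gA1 gA2, show (-1 : F) / 1 * 1 = -1 by ring]
    have := nn_symm S h' (1 : F)
    rwa [bar_bar] at this
  have hAA : A * A = hh L a b (-1 : F) := by
    have e1 : hh L a b (-1 : F) = A⁻¹ * A⁻¹ := by
      rw [hA, nn_inv S h, hh]
    have e2 := hh_inv S h (c := (-1 : F)) (neg_ne_zero.2 o1)
    rw [inv_neg, inv_one] at e2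
    rw [← e2, e1, mul_inv_rev, inv_inv]
  have hBB : B * B = hh L a (bar b) (-1 : F) := by
    have e1 : hh L a (bar b) (-1 : F) = B⁻¹ * B⁻¹ := by
      rw [hB, nn_inv S h', hh]
    have e2 := hh_inv S h' (c := (-1 : F)) (neg_ne_zero.2 o1)
    rw [inv_neg, inv_one] at e2
    rw [← e2, e1, mul_inv_rev, inv_inv]
  have hc : Commute A B := mul_inv_eq_iff_eq_mul.1 hcomm
  have comp : ∀ {c d f : J m} {x y : F}, img (π B) c = x • e d → img (π A) d = y • e f →
      img (π (A * B)) c = (x * y) • e f := by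
    intro c d f x y h1 h2
    simp only [img, map_mul, orth_mul_apply] at h1 h2 ⊢
    rw [h1, map_smul, h2, smul_smul]
  refine ⟨A * B, ?_, fun g hg ga gb => ?_, ?_, ?_, ?_, ?_, fun c ca cb => ?_⟩
  · rw [hc.symm.mul_mul_mul_comm, hAA, hBB, zeta]
  · refine Commute.mul_right (mul_inv_eq_iff_eq_mul.1 ?_) (mul_inv_eq_iff_eq_mul.1 ?_)
    · rw [hA, nn_conj S hg h ga gb, div_one, one_mul]
    · have gb' := img_bar hg gb
      rw [inv_one] at gb'
      rw [hB, nn_conj S hg h' ga gb', div_one, one_mul]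
  · simpa using comp gB1 gA2
  · simpa using comp gB4 gA3
  · simpa using comp gB3 gA4
  · simpa using comp gB2 gA1
  · have c1 : img (π A) c = (1 : F) • e c := by rw [hA, map_nn S h]; exact img_nT_of_D h o1 ca cb
    have c2 : img (π B) c = (1 : F) • e c := by rw [hB, map_nn S h']; exact img_nT_of_D h' o1 ca cb.bar_right
    simpa using comp c2 c1

end Swap

variable {F : Type u} [Field F] [Fintype F] {m : ℕ}

/-- The fixed plane of the embedded minus space: first vector. -/
def planeV (m : ℕ) (F : Type u) [Field F] : J (m + 2) → F :=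
  e (Sum.inl 0) - e (Sum.inr 0)

/-- The fixed plane of the embedded minus space: second vector. -/
def planeW (m : ℕ) {F : Type u} [Field F] (d : F) : J (m + 2) → F :=
  e (Sum.inl 1) - d • e (Sum.inr 1)

/-- The fixed plane of the embedded minus space. -/
def planeS (m : ℕ) {F : Type u} [Field F] (d : F) : Submodule F (J (m + 2) → F) :=
  Submodule.span F {planeV m F, planeW m d}

theorem polar_planeV (y : J (m + 2) → F) : polar (qPlus (m + 2) F) (planeV m F) y = y (.inr 0) - y (.inl 0) := by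
  rw [planeV, polar_sub_left, polar_e, polar_e]; rfl

theorem polar_planeW (d : F) (y : J (m + 2) → F) :
    polar (qPlus (m + 2) F) (planeW m d) y = y (.inr 1) - d * y (.inl 1) := by
  rw [planeW, polar_sub_left, polar_smul_left, polar_e, polar_e, smul_eq_mul]; rfl

theorem mem_perp_planeS (d : F) (y : J (m + 2) → F) :
    y ∈ perp (qPlus (m + 2) F) (planeS m d) ↔ y (.inr 0) = y (.inl 0) ∧ y (.inr 1) = d * y (.inl 1) := by
  rw [mem_perp]
  constructor
  · intro h
    have h1 := h (planeV m F) (Submodule.subset_span (Or.inl rfl))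
    have h2 := h (planeW m d) (Submodule.subset_span (Or.inr rfl))
    rw [polar_planeV, sub_eq_zero] at h1
    rw [polar_planeW, sub_eq_zero] at h2
    exact ⟨h1, h2⟩
  · rintro ⟨h1, h2⟩ x hx
    obtain ⟨r, s, rfl⟩ := Submodule.mem_span_pair.1 hx
    rw [polar_add_left, polar_smul_left, polar_smul_left, polar_planeV, polar_planeW, h1, h2, sub_self, sub_self,
      smul_zero, smul_zero, add_zero]

theorem planeS_inf (h2 : (2 : F) ≠ 0) {d : F} (hd : d ≠ 0) :
    planeS m d ⊓ perp (qPlus (m + 2) F) (planeS m d) = ⊥ := by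
  rw [eq_bot_iff]
  rintro x ⟨hx1, hx2⟩
  obtain ⟨r, s, rfl⟩ := Submodule.mem_span_pair.1 hx1
  obtain ⟨k1, k2⟩ := (mem_perp_planeS d _).1 hx2
  simp [planeV, planeW, e_apply] at k1 k2
  have hr : (2 : F) * r = 0 := by linear_combination -k1
  have hs : (2 : F) * d * s = 0 := by linear_combination -k2
  simp [(mul_eq_zero.1 hr).resolve_left h2, (mul_eq_zero.1 hs).resolve_left (mul_ne_zero h2 hd)]

/-- The embedded minus space. -/
noncomputable def minusInto (m : ℕ) {F : Type u} [Field F] (d : F) :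
    ((Fin m ⊕ Fin m) ⊕ Fin 2 → F) →ₗ[F] (J (m + 2) → F) where
  toFun x := Sum.elim (Fin.cases (x (.inr 0)) (Fin.cases (x (.inr 1)) fun i => x (.inl (.inl i))))
    (Fin.cases (x (.inr 0)) (Fin.cases (d * x (.inr 1)) fun i => x (.inl (.inr i))))
  map_add' x y := by
    funext k
    rcases k with i | i <;> refine Fin.cases ?_ (fun i => Fin.cases ?_ (fun i => ?_) i) i <;>
      simp only [Pi.add_apply, Sum.elim_inl, Sum.elim_inr, Fin.cases_zero, Fin.cases_succ, mul_add]
  map_smul' c x := by
    funext k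
    rcases k with i | i <;> refine Fin.cases ?_ (fun i => Fin.cases ?_ (fun i => ?_) i) i <;>
      simp only [Pi.smul_apply, Sum.elim_inl, Sum.elim_inr, Fin.cases_zero, Fin.cases_succ, smul_eq_mul,
        mul_left_comm, RingHom.id_apply]

/-- The subgroup fixing the plane is Omega of minus type. -/
theorem fixSub_planeS (h2 : (2 : F) ≠ 0) (hm : 3 ≤ m) {d : F} (hd : d ≠ 0) :
    Nonempty (fixSub (qPlus (m + 2) F) (planeS m d) ≃* commutator (orth (qMinus m F 0 d))) ∧
      ⁅fixSub (qPlus (m + 2) F) (planeS m d), fixSub (qPlus (m + 2) F) (planeS m d)⁆ =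
        fixSub (qPlus (m + 2) F) (planeS m d) := by
  classical
  haveI : Finite (J (m + 2) → F) := Pi.finite
  haveI : Finite ((Fin m ⊕ Fin m) ⊕ Fin 2 → F) := Pi.finite
  have hQ := qPlus_nondegenerate (F := F) (m + 2)
  have hW := planeS_inf (m := m) h2 hd
  let e' : ((Fin m ⊕ Fin m) ⊕ Fin 2 → F) ≃ₗ[F] perp (qPlus (m + 2) F) (planeS m d) :=
    { toFun := fun x => ⟨minusInto m d x, (mem_perp_planeS d _).2 ⟨rfl, rfl⟩⟩
      map_add' := fun a b => Subtype.ext (map_add _ a b)
      map_smul' := fun a b => Subtype.ext (map_smul _ a b)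
      invFun := fun y => Sum.elim (Sum.elim (fun i => y.1 (.inl i.succ.succ)) fun i => y.1 (.inr i.succ.succ))
        ![y.1 (.inl 0), y.1 (.inl 1)]
      left_inv := fun x => funext fun k => by
        rcases k with (i | i) | i
        · rfl
        · rfl
        · fin_cases i <;> rfl
      right_inv := fun y => Subtype.ext (funext fun k => by
        obtain ⟨k1, k2⟩ := (mem_perp_planeS d y.1).1 y.2
        rcases k with i | i <;> refine Fin.cases ?_ (fun i => Fin.cases ?_ (fun i => ?_) i) i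
        all_goals first
          | rfl
          | exact k1.symm
          | exact k2.symm) }
  have he' : ∀ x, ((qPlus (m + 2) F).comp (perp (qPlus (m + 2) F) (planeS m d)).subtype) (e' x) =
      qMinus m F 0 d x := fun x => by
    simp [coe_qPlus, coe_qMinus, Cfsg.quadFormPlus, Cfsg.quadFormMinus, e', minusInto, Fin.sum_univ_succ]
    ring
  have hUd : Module.finrank F (perp (qPlus (m + 2) F) (planeS m d)) = 2 * m + 2 := by
    rw [← LinearEquiv.finrank_eq e']; simp; omega
  obtain ⟨i⟩ := nonempty_fixSub_equiv hQ hW (by rw [hUd]; omega)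
  obtain ⟨j⟩ := nonempty_commutator_congr (orthCongr e' he')
  exact ⟨⟨i.symm.trans j.symm⟩, fixSub_perfect hQ hW (by rw [hUd]; omega)⟩

theorem zeta_mem_ker (hM : 4 ≤ m + 2) {p q : J (m + 2)} (h : D p q) :
    zeta (rootC (F := F)) p q ∈ (projOmega (F := F) hM).ker :=
  MonoidHom.mem_ker.2 (Subtype.ext (zeta_val h).2)

theorem zeta_mem_dpre (hm : 3 ≤ m) (d : F) :
    zeta (rootC (F := F)) (Sum.inl (⟨2, by omega⟩ : Fin (m + 2))) (Sum.inl ⟨3, by omega⟩) ∈
      dpre (projOmega (F := F) (show 4 ≤ m + 2 by omega)) (fixSub (qPlus (m + 2) F) (planeS m d)) := by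
  classical
  haveI : Finite (J (m + 2) → F) := Pi.finite
  set π := projOmega (F := F) (show 4 ≤ m + 2 by omega)
  set P := fixSub (qPlus (m + 2) F) (planeS m d)
  have mem : ∀ a b : J (m + 2), D a b → 2 ≤ (idx a).1 → 2 ≤ (idx b).1 → ∀ t : F, rootC a b t ∈ P.comap π := by
    intro a b hab ha hb t
    rw [Subgroup.mem_comap]
    refine mem_fixSub_span fun x hx => ?_
    rw [coe_projOmega, sys_rootC.map a b hab, act_T hab]
    have n1 : ∀ c : J (m + 2), 2 ≤ (idx c).1 → x c = 0 := fun c hc => by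
      have k0 : idx c ≠ 0 := fun h => by rw [h] at hc; simp at hc
      have k1 : idx c ≠ 1 := fun h => by rw [h] at hc; simp at hc
      rcases hx with rfl | hx
      · rcases c with c | c <;> simp [planeV, e_apply, idx] at k0 k1 ⊢ <;> simp [k0, k1]
      · rw [Set.mem_singleton_iff.1 hx]
        rcases c with c | c <;> simp [planeW, e_apply, idx] at k0 k1 ⊢ <;> simp [k0, k1]
    rw [n1 b hb, n1 (bar a) (by rwa [idx_bar])]
    simp
  have hroot : ∀ a b : J (m + 2), D a b → 2 ≤ (idx a).1 → 2 ≤ (idx b).1 → ∀ t : F, rootC a b t ∈ dpre π P := by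
    intro a b hab ha hb t
    obtain ⟨i, hi⟩ := exists_idx_notMem (m := m + 2) (s := {0, 1, idx a, idx b}) (by
      have := Finset.card_le_four (a := (0 : Fin (m + 2))) (b := 1) (c := idx a) (d := idx b); omega)
    simp only [Finset.mem_insert, Finset.mem_singleton, not_or] at hi
    have hai : D a (Sum.inl i) := fun q => hi.2.2.1 q.symm
    have hib : D (Sum.inl i) b := fun q => hi.2.2.2 q
    have hi2 : 2 ≤ (idx (Sum.inl i : J (m + 2))).1 := by
      show 2 ≤ i.1
      have h0 : i.1 ≠ 0 := fun h => hi.1 (Fin.ext h)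
      have h1 : i.1 ≠ 1 := fun h => hi.2.1 (Fin.ext (by simp [h]))
      omega
    rw [← mul_one t, ← sys_rootC.form a b (Sum.inl i) hai hib hab t 1]
    exact Subgroup.commutator_mem_commutator (mem a _ hai ha hi2 t) (mem _ b hib hi2 hb 1)
  have h : ∀ a b : J (m + 2), D a b → 2 ≤ (idx a).1 → 2 ≤ (idx b).1 →
      hh (rootC (F := F)) a b (-1) ∈ dpre π P := fun a b hab ha hb => mul_mem
    (mul_mem (mul_mem (hroot a b hab ha hb _) (hroot b a hab.symm hb ha _)) (hroot a b hab ha hb _))
    (mul_mem (mul_mem (hroot a b hab ha hb _) (hroot b a hab.symm hb ha _)) (hroot a b hab ha hb _))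
  have h23 : D (Sum.inl ⟨2, by omega⟩ : J (m + 2)) (Sum.inl ⟨3, by omega⟩) := by simp [D, idx]
  exact mul_mem (h _ _ h23 le_rfl (by show 2 ≤ 3; omega)) (h _ _ h23.bar_right le_rfl (by show 2 ≤ 3; omega))

/-- Stem extensions of Omega of minus type with kernel of order at least two. -/
theorem exists_stem_omega_minus (h2 : (2 : F) ≠ 0) (hm : 3 ≤ m) {d : F} (hd : d ≠ 0) :
    ∃ (Γ : Type u) (_ : Group Γ) (_ : Finite Γ) (σ : Γ →* commutator (orth (qMinus m F 0 d))),
      Cfsg.IsStemExtension σ ∧ 2 ≤ Nat.card σ.ker := by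
  classical
  have hM : 4 ≤ m + 2 := by omega
  haveI : Finite (J (m + 2) → F) := Pi.finite
  haveI := cover_finite (F := F) hM
  obtain ⟨⟨k⟩, hP⟩ := fixSub_planeS (m := m) h2 hm hd
  obtain ⟨τ, hτ, -, hval⟩ := exists_stem_dpre (projOmega_surjective hM)
    (fun x hx => ker_proj_le_center (m := m + 2) (by
      rw [MonoidHom.mem_ker] at hx ⊢
      exact congrArg Subtype.val hx)) hP
  refine ⟨_, inferInstance, inferInstance, k.toMonoidHom.comp τ, isStemExtension_comp_equiv hτ k, ?_⟩
  rw [MonoidHom.ker_comp_of_injective _ _ k.injective]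
  have h23 : D (Sum.inl ⟨2, by omega⟩ : J (m + 2)) (Sum.inl ⟨3, by omega⟩) := by simp [D, idx]
  haveI : Nontrivial τ.ker := ⟨⟨⟨⟨_, zeta_mem_dpre hm d⟩, MonoidHom.mem_ker.2 (Subtype.ext
      ((hval _).trans (MonoidHom.mem_ker.1 (zeta_mem_ker hM h23))))⟩, 1,
    fun h => h2 ((zeta_eq_one_iff h23).1
      (congrArg Subtype.val (congrArg Subtype.val h)))⟩⟩
  exact Finite.one_lt_card

/-- An element of the cover over minus one on the embedded minus space. -/
theorem exists_half_neg (hm : 3 ≤ m) (he : Even m) :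
    ∃ z : cover (m + 2) F,
      z * z = zeta (rootC (F := F)) (Sum.inl (0 : Fin (m + 2))) (Sum.inl 1) ∧
      ∀ x, ((proj (m + 2) F z : orth (qPlus (m + 2) F)) : (J (m + 2) → F) ≃ₗ[F] (J (m + 2) → F)) x =
        -x - polar (qPlus (m + 2) F) (planeV m F) x • planeV m F -
          polar (qPlus (m + 2) F) (planeW m (1 : F)) x • planeW m (1 : F) := by
  classical
  haveI : Finite (J (m + 2) → F) := Pi.finite
  haveI := cover_finite (F := F) (show 4 ≤ m + 2 by omega)
  have h01' : (0 : Fin (m + 2)) ≠ 1 := by simp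
  have h01 : D (Sum.inl (0 : Fin (m + 2)) : J (m + 2)) (Sum.inl 1) := h01'
  obtain ⟨n, hnn, hncomm, na, na', nb, nb', nc⟩ := exists_flip (F := F) sys_rootC h01
  set s : Finset (Fin (m + 2)) := Finset.univ.filter fun i => i ≠ 0 ∧ i ≠ 1 with hs
  have hscard : s.card = m := by
    have : s = Finset.univ \ {0, 1} := by ext i; simp [hs]
    rw [this, Finset.card_sdiff_of_subset (Finset.subset_univ _), Finset.card_pair h01', Finset.card_univ,
      Fintype.card_fin, Nat.add_sub_cancel]
  obtain ⟨z₁, hz₁, -, hzimg⟩ := exists_sign (m := m + 2) (F := F) s (hscard.symm ▸ he)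
  have hz0 : img (proj (m + 2) F z₁) (Sum.inl 0) = (1 : F) • e (Sum.inl 0 : J (m + 2)) := by
    rw [hzimg, if_neg (by simp [hs, idx])]
  have hz1 : img (proj (m + 2) F z₁) (Sum.inl 1) = (1 : F) • e (Sum.inl 1 : J (m + 2)) := by
    rw [hzimg, if_neg (by simp [hs, idx])]
  have hzn : Commute z₁ n := hncomm z₁ (fun a => ⟨a, _, hzimg a⟩) hz0 hz1
  refine ⟨z₁ * n, by rw [hzn.symm.mul_mul_mul_comm, hz₁, one_mul, hnn], fun x => ?_⟩
  let Lf : (J (m + 2) → F) →ₗ[F] (J (m + 2) → F) := -LinearMap.id -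
    (polarBilin (qPlus (m + 2) F) (planeV m F)).smulRight (planeV m F) -
    (polarBilin (qPlus (m + 2) F) (planeW m (1 : F))).smulRight (planeW m (1 : F))
  suffices key : (((proj (m + 2) F (z₁ * n) : orth (qPlus (m + 2) F)) :
      (J (m + 2) → F) ≃ₗ[F] (J (m + 2) → F)) : (J (m + 2) → F) →ₗ[F] (J (m + 2) → F)) = Lf from
    LinearMap.congr_fun key x
  refine (Pi.basisFun F (J (m + 2))).ext fun a => ?_
  have ha : Pi.basisFun F (J (m + 2)) a = e a := Pi.basisFun_apply F _ a
  rw [ha]
  have lhs : ∀ {c c' : J (m + 2)} {y : F}, img (proj (m + 2) F n) c = y • e c' →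
      ((proj (m + 2) F (z₁ * n) : orth (qPlus (m + 2) F)) : (J (m + 2) → F) ≃ₗ[F] (J (m + 2) → F)) (e c) =
        (y * if idx c' ∈ s then (-1 : F) else 1) • e c' := by
    intro c c' y h
    have h2 := hzimg c'
    simp only [img, map_mul, orth_mul_apply] at h h2 ⊢
    rw [h, map_smul, h2, smul_smul]
  simp only [Lf, LinearMap.sub_apply, LinearMap.neg_apply, LinearMap.id_apply, LinearMap.smulRight_apply,
    polarBilin_apply_apply, polar_planeV, polar_planeW, one_mul, LinearEquiv.coe_coe]
  rcases a with i | i <;> refine Fin.cases ?_ (fun i => Fin.cases ?_ (fun i => ?_) i) i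
  · rw [lhs na]; simp [hs, idx, planeV, planeW, e_apply, bar] <;> abel
  · rw [show (Fin.succ 0 : Fin (m + 2)) = 1 from rfl, lhs nb]
    simp [hs, idx, planeV, planeW, e_apply, bar] <;> abel
  · have c0 : i.succ.succ ≠ (0 : Fin (m + 2)) := Fin.succ_ne_zero _
    have c1 : i.succ.succ ≠ (1 : Fin (m + 2)) := fun h => Fin.succ_ne_zero i (Fin.succ_injective _ h)
    rw [lhs (nc (Sum.inl i.succ.succ) c0 c1)]
    simp [hs, idx, planeV, planeW, e_apply, c0, c1, c0.symm, c1.symm]
  · rw [show (Sum.inr 0 : J (m + 2)) = bar (Sum.inl 0) from rfl, lhs na']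
    simp [hs, idx, planeV, planeW, e_apply, bar] <;> abel
  · rw [show (Sum.inr (Fin.succ 0) : J (m + 2)) = bar (Sum.inl 1) from rfl, lhs nb']
    simp [hs, idx, planeV, planeW, e_apply, bar] <;> abel
  · have c0 : i.succ.succ ≠ (0 : Fin (m + 2)) := Fin.succ_ne_zero _
    have c1 : i.succ.succ ≠ (1 : Fin (m + 2)) := fun h => Fin.succ_ne_zero i (Fin.succ_injective _ h)
    rw [lhs (nc (Sum.inr i.succ.succ) c0 c1)]
    simp [hs, idx, planeV, planeW, e_apply, c0, c1, c0.symm, c1.symm]

/-- A stem extension with cyclic kernel of order four over the quotient by the centre. -/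
theorem exists_stem_pomega_minus (h2 : (2 : F) ≠ 0) (hm : 3 ≤ m) (he : Even m)
    (hZ : Nat.card (Subgroup.center (commutator (orth (qMinus m F 0 1)))) ≤ 2) :
    ∃ (Γ : Type u) (_ : Group Γ) (_ : Finite Γ)
      (σ : Γ →* commutator (orth (qMinus m F 0 1)) ⧸ Subgroup.center (commutator (orth (qMinus m F 0 1)))),
      Cfsg.IsStemExtension σ ∧ IsCyclic σ.ker ∧ Nat.card σ.ker = 4 := by
  classical
  have hM : 4 ≤ m + 2 := by omega
  haveI : Finite (J (m + 2) → F) := Pi.finite
  haveI : Finite ((Fin m ⊕ Fin m) ⊕ Fin 2 → F) := Pi.finite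
  haveI := cover_finite (F := F) hM
  obtain ⟨⟨k⟩, hP⟩ := fixSub_planeS (m := m) h2 hm (one_ne_zero (α := F))
  have hs := projOmega_surjective (F := F) hM
  have hc : (projOmega (F := F) hM).ker ≤ Subgroup.center (cover (m + 2) F) := fun x hx => ker_proj_le_center (by
    rw [MonoidHom.mem_ker] at hx ⊢
    exact congrArg Subtype.val hx)
  obtain ⟨τ, hτ, htop, hval⟩ := exists_stem_dpre hs hc hP
  obtain ⟨z, hzz, hzimg⟩ := exists_half_neg (F := F) hm he
  have hzP : projOmega hM z ∈ fixSub (qPlus (m + 2) F) (planeS m (1 : F)) := by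
    refine mem_fixSub_span fun x hx => ?_
    rw [coe_projOmega, hzimg, polar_planeV, polar_planeW]
    rcases hx with rfl | hx
    · simp [planeV, planeW, e_apply]; module
    · rw [Set.mem_singleton_iff.1 hx]
      simp [planeV, planeW, e_apply]; module
  have hcen : ∀ g ∈ fixSub (qPlus (m + 2) F) (planeS m (1 : F)), g * projOmega hM z = projOmega hM z * g := by
    intro g hg
    refine Subtype.ext (orth_ext fun x => ?_)
    have g0 := mem_fixSub.1 hg _ (Submodule.subset_span (Or.inl rfl) : planeV m F ∈ planeS m (1 : F))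
    have g1 := mem_fixSub.1 hg _ (Submodule.subset_span (Or.inr rfl) : planeW m (1 : F) ∈ planeS m (1 : F))
    have p0 := orth_polar (g : orth (qPlus (m + 2) F)) (planeV m F) x
    have p1 := orth_polar (g : orth (qPlus (m + 2) F)) (planeW m (1 : F)) x
    rw [g0] at p0
    rw [g1] at p1
    show ((g : orth (qPlus (m + 2) F)) : (J (m + 2) → F) ≃ₗ[F] (J (m + 2) → F))
        (((proj (m + 2) F z : orth (qPlus (m + 2) F)) : (J (m + 2) → F) ≃ₗ[F] (J (m + 2) → F)) x) =
      ((proj (m + 2) F z : orth (qPlus (m + 2) F)) : (J (m + 2) → F) ≃ₗ[F] (J (m + 2) → F))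
        (((g : orth (qPlus (m + 2) F)) : (J (m + 2) → F) ≃ₗ[F] (J (m + 2) → F)) x)
    rw [hzimg, hzimg]
    simp only [map_sub, map_neg, map_smul, g0, g1, p0, p1]
  have h01 : D (Sum.inl (0 : Fin (m + 2)) : J (m + 2)) (Sum.inl 1) := by
    show (0 : Fin (m + 2)) ≠ 1
    simp
  have h23 : D (Sum.inl ⟨2, by omega⟩ : J (m + 2)) (Sum.inl ⟨3, by omega⟩) := by simp [D, idx]
  have hk : (projOmega (F := F) hM).ker = (proj (m + 2) F).ker := by
    ext x
    rw [MonoidHom.mem_ker, MonoidHom.mem_ker, ← Subtype.coe_inj]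
    rfl
  have hkerD : (projOmega (F := F) hM).ker ≤ dpre (projOmega hM) (fixSub (qPlus (m + 2) F) (planeS m (1 : F))) := by
    rw [hk, card_ker_proj h23, Subgroup.zpowers_le]
    exact zeta_mem_dpre hm _
  have hzD : z ∈ dpre (projOmega hM) (fixSub (qPlus (m + 2) F) (planeS m (1 : F))) := by
    obtain ⟨y, hy, ey⟩ := exists_mem_dpre hs (x := projOmega hM z) (P := fixSub (qPlus (m + 2) F) (planeS m (1 : F)))
      (by rw [hP]; exact hzP)
    have : y⁻¹ * z ∈ (projOmega (F := F) hM).ker := by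
      rw [MonoidHom.mem_ker, map_mul, map_inv, ey, inv_mul_cancel]
    simpa using mul_mem hy (hkerD this)
  haveI : Finite (orth (qMinus m F 0 (1 : F))) :=
    Finite.of_injective (fun g : orth (qMinus m F 0 (1 : F)) =>
      (((g : ((Fin m ⊕ Fin m) ⊕ Fin 2 → F) ≃ₗ[F] ((Fin m ⊕ Fin m) ⊕ Fin 2 → F)) :
        ((Fin m ⊕ Fin m) ⊕ Fin 2 → F) → ((Fin m ⊕ Fin m) ⊕ Fin 2 → F))))
      fun g h hgh => Subtype.ext (DFunLike.coe_injective hgh)
  set σ₀ := k.toMonoidHom.comp τ with hσ₀
  have hσ₀s : Cfsg.IsStemExtension σ₀ := isStemExtension_comp_equiv hτ k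
  set σ := (QuotientGroup.mk' (Subgroup.center (commutator (orth (qMinus m F 0 1))))).comp σ₀ with hσ
  refine ⟨_, inferInstance, inferInstance, σ, isStemExtension_center_quotient hσ₀s htop, ?_⟩
  let Z : dpre (projOmega hM) (fixSub (qPlus (m + 2) F) (planeS m (1 : F))) := ⟨z, hzD⟩
  have hZc : σ₀ Z ∈ Subgroup.center (commutator (orth (qMinus m F 0 1))) := by
    rw [Subgroup.mem_center_iff]
    intro y
    obtain ⟨p, rfl⟩ := k.surjective y
    have hcomm : p * τ Z = τ Z * p := Subtype.ext (by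
      rw [Subgroup.coe_mul, Subgroup.coe_mul, hval]; exact hcen _ p.2)
    calc k p * σ₀ Z = k (p * τ Z) := (map_mul k _ _).symm
      _ = k (τ Z * p) := by rw [hcomm]
      _ = σ₀ Z * k p := map_mul k _ _
  have hZker : Z ∈ σ.ker := by
    rw [MonoidHom.mem_ker]
    exact (QuotientGroup.eq_one_iff _).2 hZc
  have hz4 : orderOf Z = 4 := by
    have hζ : ¬ zeta (rootC (F := F)) (Sum.inl (0 : Fin (m + 2))) (Sum.inl 1) = 1 :=
      fun h => h2 ((zeta_eq_one_iff h01).1 h)
    have := orderOf_eq_prime_pow (p := 2) (n := 1) (x := z) (by simpa [pow_two, hzz] using hζ)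
      (by rw [show 2 ^ (1 + 1) = 2 * 2 by norm_num, pow_mul, pow_two, pow_two, hzz]; exact zeta_mul_self sys_rootC h01)
    rw [← Subgroup.orderOf_coe Z]
    exact this
  have h4 : 4 ≤ Nat.card σ.ker := by
    have hle : Subgroup.zpowers Z ≤ σ.ker := Subgroup.zpowers_le.2 hZker
    have := Subgroup.card_le_of_le hle
    rwa [Nat.card_zpowers, hz4] at this
  have hle : Nat.card σ.ker ≤ 4 := by
    let f : σ.ker →* Subgroup.center (commutator (orth (qMinus m F 0 1))) :=
      (σ₀.comp σ.ker.subtype).codRestrict _ fun x => (QuotientGroup.eq_one_iff _).1 x.2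
    have h1 : Nat.card f.ker ≤ 2 := by
      refine (Nat.card_le_card_of_injective
        (fun x : f.ker => (⟨(x.1.1).1, ?_⟩ : (projOmega (F := F) hM).ker)) ?_).trans (finite_cover_card_ker hM)
      · have hx : σ₀ (x : σ.ker) = 1 := congrArg Subtype.val x.2
        have hx' : τ (x : σ.ker) = 1 := (map_eq_one_iff k k.injective).1 hx
        rw [MonoidHom.mem_ker, ← hval, hx', Subgroup.coe_one]
      · intro x y hxy
        exact Subtype.ext (Subtype.ext (Subtype.ext (congrArg Subtype.val hxy :)))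
    rw [Subgroup.card_eq_card_quotient_mul_card_subgroup f.ker]
    have h2' : Nat.card (σ.ker ⧸ f.ker) ≤ 2 :=
      (Nat.card_le_card_of_injective _ (QuotientGroup.kerLift_injective f)).trans hZ
    calc Nat.card (σ.ker ⧸ f.ker) * Nat.card f.ker ≤ 2 * 2 := Nat.mul_le_mul h2' h1
      _ = 4 := rfl
  have hcard : Nat.card σ.ker = 4 := le_antisymm hle h4
  exact ⟨isCyclic_of_orderOf_eq_card (⟨Z, hZker⟩ : σ.ker) (by rw [hcard, ← Subgroup.orderOf_coe, hz4]), hcard⟩

end Cfsg.Agent.H82.Orth
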