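import Cfsg.Agent.H82.Orth.MinusExist
import Cfsg.Agent.H82.Orth.MinusOdd
import Cfsg.Agent.H82.Orth.MinusEven
import Cfsg.Agent.H62.ConformalPlusMinus

/-!
# The multiplier of the projective orthogonal groups of minus type
-/

set_option autoImplicit false
set_option linter.unusedSectionVars false
set_option linter.unusedSimpArgs false

open QuadraticMap hiding sq
open scoped commutatorElement

namespace Cfsg.Agent.H82.Orth

open Cfsg.Agent.H5

universe u v w

variable {F : Type u} [Field F] [Fintype F]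

/-- Changing the anisotropic plane of the minus space. -/
noncomputable def planeShift (m : ℕ) {F : Type u} [Field F] (c : F) {s : F} (hs : s ≠ 0) :
    ((Fin m ⊕ Fin m) ⊕ Fin 2 → F) ≃ₗ[F] ((Fin m ⊕ Fin m) ⊕ Fin 2 → F) where
  toFun x := Sum.elim (fun i => x (.inl i)) ![x (.inr 0) + c * x (.inr 1), s * x (.inr 1)]
  map_add' x y := by
    funext k
    rcases k with k | k
    · rfl
    · fin_cases k <;> simp <;> ring
  map_smul' r x := by
    funext k
    rcases k with k | k
    · rfl
    · fin_cases k <;> simp <;> ring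
  invFun x := Sum.elim (fun i => x (.inl i)) ![x (.inr 0) - c * (s⁻¹ * x (.inr 1)), s⁻¹ * x (.inr 1)]
  left_inv x := by
    funext k
    rcases k with k | k
    · rfl
    · fin_cases k <;> simp [inv_mul_cancel_left₀ hs]
  right_inv x := by
    funext k
    rcases k with k | k
    · rfl
    · fin_cases k <;> simp [mul_inv_cancel_left₀ hs]

/-- Completing the square in the binary part. -/
theorem nonempty_omega_minus_diag (h2 : (2 : F) ≠ 0) (m : ℕ) {a b s d : F} (hs : s ≠ 0)
    (h : d * s ^ 2 = b - a ^ 2 / 4) :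
    Nonempty (commutator (orth (qMinus m F a b)) ≃* commutator (orth (qMinus m F 0 d))) := by
  have h4 : (4 : F) ≠ 0 := by
    rw [show (4 : F) = 2 * 2 by norm_num]; exact mul_ne_zero h2 h2
  refine nonempty_commutator_congr (orthCongr (planeShift m (a / 2) hs) fun x => ?_)
  simp [coe_qMinus, Cfsg.quadFormMinus, planeShift]
  field_simp at h ⊢
  linear_combination (x (Sum.inr 1)) ^ 2 * h

theorem card_center_omega_minus_le (m : ℕ) (hm : 3 ≤ m) {a b : F}
    (hab : ∀ z₁ z₂ : F, z₁ ^ 2 + a * z₁ * z₂ + b * z₂ ^ 2 = 0 → z₁ = 0 ∧ z₂ = 0) :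
    Nat.card (Subgroup.center (commutator (orth (qMinus m F a b)))) ≤ 2 := by
  classical
  haveI : Finite ((Fin m ⊕ Fin m) ⊕ Fin 2 → F) := Pi.finite
  have hn : Module.finrank F ((Fin m ⊕ Fin m) ⊕ Fin 2 → F) = 2 * m + 2 := by simp; omega
  rw [H4.card_center_commutator (H5.qMinus_nondegenerate (F := F) m hab) (by omega)]
  split_ifs <;> omega

theorem finite_orth_minus (m : ℕ) (a b : F) : Finite (orth (qMinus m F a b)) := by
  haveI : Finite ((Fin m ⊕ Fin m) ⊕ Fin 2 → F) := Pi.finite
  exact Finite.of_injective (fun g : orth (qMinus m F a b) =>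
    (((g : ((Fin m ⊕ Fin m) ⊕ Fin 2 → F) ≃ₗ[F] ((Fin m ⊕ Fin m) ⊕ Fin 2 → F)) :
      ((Fin m ⊕ Fin m) ⊕ Fin 2 → F) → ((Fin m ⊕ Fin m) ⊕ Fin 2 → F))))
    fun g h hgh => Subtype.ext (DFunLike.coe_injective hgh)

/-- The projective group when minus one lies in Omega, for the diagonal form. -/
theorem multiplier_pomega_minus_four (h2 : (2 : F) ≠ 0) {m : ℕ} (hm : 3 ≤ m) (he : Even m)
    (hn : ¬ IsSquare (-1 : F)) :
    Cfsg.HasCyclicSchurMultiplier
      (commutator (orth (qMinus m F 0 1)) ⧸ Subgroup.center (commutator (orth (qMinus m F 0 1)))) 4 := by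
  classical
  haveI : Finite ((Fin m ⊕ Fin m) ⊕ Fin 2 → F) := Pi.finite
  haveI := finite_orth_minus (F := F) m 0 1
  have hab : ∀ z₁ z₂ : F, z₁ ^ 2 + (0 : F) * z₁ * z₂ + 1 * z₂ ^ 2 = 0 → z₁ = 0 ∧ z₂ = 0 := by
    intro z₁ z₂ h
    have hz : z₂ = 0 := by
      by_contra h0
      refine hn ⟨z₁ / z₂, ?_⟩
      field_simp
      linear_combination -h
    refine ⟨?_, hz⟩
    rw [hz] at h
    simpa using h
  have hZ := card_center_omega_minus_le m hm hab
  obtain ⟨Γ, _, _, σ, hσ, hcyc, hcard⟩ := exists_stem_pomega_minus (F := F) h2 hm he hZ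
  refine Cfsg.Agent.H82.hasCyclicSchurMultiplier_of_card hσ hcyc hcard fun Δ _ _ τ hτ => ?_
  have hfin : Module.finrank F ((Fin m ⊕ Fin m) ⊕ Fin 2 → F) = 2 * m + 2 := by simp; omega
  have hle := stem_card_ker_le_mul (commutator_omega_eq_top (H5.qMinus_nondegenerate (F := F) m hab) (by omega))
    (n := 2) (fun Δ _ _ τ hτ => stem_omega_minus_le_odd h2 hm hab hτ)
    (π := QuotientGroup.mk' (Subgroup.center (commutator (orth (qMinus m F 0 1)))))
    (QuotientGroup.mk'_surjective _) hτ
  rw [QuotientGroup.ker_mk'] at hle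
  omega

/-- The multiplier of the projective groups of minus type. -/
theorem pomega_minus_multiplier {m : ℕ} (hm : 3 ≤ m) {a b : F}
    (hab : ∀ z₁ z₂ : F, z₁ ^ 2 + a * z₁ * z₂ + b * z₂ ^ 2 = 0 → z₁ = 0 ∧ z₂ = 0) :
    Cfsg.HasCyclicSchurMultiplier (Cfsg.POmega F (Cfsg.quadFormMinus m F a b))
      (Nat.gcd 4 (Fintype.card F ^ (m + 1) + 1)) := by
  classical
  haveI : Finite ((Fin m ⊕ Fin m) ⊕ Fin 2 → F) := Pi.finite
  haveI := finite_orth_minus (F := F) m a b
  have hQ := H5.qMinus_nondegenerate (F := F) m hab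
  have hn : Module.finrank F ((Fin m ⊕ Fin m) ⊕ Fin 2 → F) = 2 * m + 2 := by simp; omega
  refine Cfsg.Agent.H82.HasSchurMultiplier.of_mulEquiv ?_ (pomegaEquiv (qMinus m F a b) (coe_qMinus m a b)).symm
  have triv : ¬ ((2 : F) ≠ 0 ∧ H4.negOrth (qMinus m F a b) ∈ commutator (orth (qMinus m F a b))) →
      ∀ n, Cfsg.HasCyclicSchurMultiplier (commutator (orth (qMinus m F a b))) n →
        Cfsg.HasCyclicSchurMultiplier
          (commutator (orth (qMinus m F a b)) ⧸ Subgroup.center (commutator (orth (qMinus m F a b)))) n := by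
    intro hne n h
    have hZ : Subgroup.center (commutator (orth (qMinus m F a b))) = ⊥ :=
      Subgroup.eq_bot_of_card_eq _ (by rw [H4.card_center_commutator hQ (by omega), if_neg hne])
    exact Cfsg.Agent.H82.HasSchurMultiplier.of_mulEquiv h
      ((QuotientGroup.quotientMulEquivOfEq hZ).trans QuotientGroup.quotientBot).symm
  by_cases h2 : (2 : F) = 0
  · have hev : Fintype.card F % 2 = 0 := card_even h2
    have hodd : Odd (Fintype.card F ^ (m + 1) + 1) := by
      rw [Nat.odd_add_one, Nat.not_odd_iff_even, Nat.even_pow]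
      exact ⟨Nat.even_iff.2 hev, by omega⟩
    have hg : Nat.gcd 4 (Fintype.card F ^ (m + 1) + 1) = 1 := by
      show Nat.Coprime (2 ^ 2) _
      exact (Nat.coprime_two_left.2 hodd).pow_left 2
    rw [hg]
    refine triv (fun h => h.1 h2) 1 ((Cfsg.Agent.H82.hasCyclicSchurMultiplier_one_iff).2 fun Γ _ _ σ hσ => ?_)
    have hle := stem_omega_minus_le_even h2 hab hm hσ
    exact (MonoidHom.ker_eq_bot_iff _).1 (Subgroup.eq_bot_of_card_le _ hle)
  have hqodd : Odd (Fintype.card F) := Nat.odd_iff.2 (card_odd h2)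
  have hneg := Cfsg.Agent.H62.Conformal.negOrth_minus_iff hab h2 hm
  have hmod : (Fintype.card F ^ (m + 1) + 1) % 2 = 0 := by
    have := Nat.odd_iff.1 (hqodd.pow (n := m + 1))
    omega
  have hp := H4.pow_mod_four hqodd (m + 1)
  rw [H4.gcd_four_of_even hmod]
  set d := b - a ^ 2 / 4 with hd
  have h4 : (4 : F) ≠ 0 := by
    rw [show (4 : F) = 2 * 2 by norm_num]; exact mul_ne_zero h2 h2
  have hd0 : d ≠ 0 := by
    intro h
    refine four_mul_sub_ne_zero hab ?_
    rw [hd] at h
    field_simp at h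
    linear_combination h
  by_cases hc : Even m ∧ Fintype.card F % 4 = 3
  · rw [if_pos (c := Fintype.card F % 4 = 3 ∧ Odd (m + 1)) ⟨hc.2, hc.1.add_one⟩] at hp
    rw [if_pos (by omega)]
    have hn1 : ¬ IsSquare (-1 : F) := by
      rw [FiniteField.isSquare_neg_one_iff, not_not]; exact hc.2
    obtain ⟨r, hr⟩ := (Cfsg.Agent.H62.Conformal.minus_isSquare_disc hab h2).2 hn1
    have hr0 : r ≠ 0 := by
      rintro rfl
      exact four_mul_sub_ne_zero hab (by rw [hr, mul_zero])
    obtain ⟨i⟩ := nonempty_omega_minus_diag h2 m (a := a) (b := b) (s := r / 2) (d := (1 : F))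
      (div_ne_zero hr0 h2) (by field_simp; linear_combination (-4 : F) * hr)
    exact Cfsg.Agent.H82.HasSchurMultiplier.of_mulEquiv (multiplier_pomega_minus_four h2 hm hc.1 hn1)
      (QuotientGroup.congr _ _ i.symm (by
        ext x
        rw [Subgroup.mem_map, Subgroup.mem_center_iff]
        constructor
        · rintro ⟨y, hy, rfl⟩ z
          obtain ⟨w, rfl⟩ := i.symm.surjective z
          exact (map_mul i.symm _ _).symm.trans ((congrArg i.symm (Subgroup.mem_center_iff.1 hy w)).trans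
            (map_mul i.symm _ _))
        · intro hx
          refine ⟨i x, Subgroup.mem_center_iff.2 fun w => ?_, i.symm_apply_apply x⟩
          obtain ⟨w, rfl⟩ := i.surjective w
          rw [← map_mul, ← map_mul, hx w]))
  · have hc' : ¬ (Fintype.card F % 4 = 3 ∧ Odd (m + 1)) := fun h => hc ⟨by
      rcases h.2 with ⟨k, hk⟩; exact ⟨k, by omega⟩, h.1⟩
    rw [if_neg hc'] at hp
    rw [if_neg (by omega)]
    refine triv (fun h => hc (hneg.1 h.2)) 2 ?_
    obtain ⟨i⟩ := nonempty_omega_minus_diag h2 m (a := a) (b := b) (s := (1 : F)) (d := d) one_ne_zero (by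
      rw [one_pow, mul_one])
    obtain ⟨Γ, _, _, σ, hσ, hcard⟩ := exists_stem_omega_minus (F := F) h2 hm hd0
    have hσ' := Cfsg.Agent.H82.isStemExtension_comp_equiv hσ i.symm
    have hk : (i.symm.toMonoidHom.comp σ).ker = σ.ker := MonoidHom.ker_comp_of_injective _ _ i.symm.injective
    have hle := stem_omega_minus_le_odd h2 hm hab hσ'
    have h2' : Nat.card (i.symm.toMonoidHom.comp σ).ker = 2 := le_antisymm hle (by rw [hk]; exact hcard)
    haveI : Fact (Nat.Prime 2) := ⟨Nat.prime_two⟩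
    exact Cfsg.Agent.H82.hasCyclicSchurMultiplier_of_card hσ' (isCyclic_of_prime_card (p := 2) h2') h2'
      fun Δ _ _ τ hτ => stem_omega_minus_le_odd h2 hm hab hτ

end Cfsg.Agent.H82.Orth
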