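import Cfsg.Agent.H82.Orth.Point
import Cfsg.Agent.H82.Orth.CoveringAgree

/-!
# Central extensions of Omega in odd characteristic and dimension at least eight

The kernel of a perfect central extension lies in the derived preimage of the stabiliser of a vector of norm
one, for every field of odd order.
-/

set_option autoImplicit false
set_option linter.unusedSectionVars false
set_option linter.unusedSimpArgs false

open QuadraticMap hiding sq
open scoped commutatorElement

namespace Cfsg.Agent.H82.Orth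

open Cfsg.Agent.H5

universe u

variable {F V : Type*} [Field F] [AddCommGroup V] [Module F V] [FiniteDimensional F V] {Q : QuadraticForm F V}

theorem orthon_one (x : Pt Q) : Orthon Q ![x.1] :=
  ⟨fun i => by fin_cases i; exact x.2, fun i j hij => absurd (Subsingleton.elim i j) hij⟩

theorem finrank_sup_span_singleton_le (S : Submodule F V) (x : V) :
    Module.finrank F ↥(S ⊔ Submodule.span F {x}) ≤ Module.finrank F S + 1 := by
  refine (Submodule.finrank_add_le_finrank_add_finrank _ _).trans ?_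
  have := finrank_span_le_card (R := F) ({x} : Set V)
  simp at this
  omega

variable [Finite F] [Finite V] (h2 : (2 : F) ≠ 0) (hQ : (polarBilin Q).Nondegenerate)

include h2 hQ

theorem point_perfect' (h6 : 6 ≤ Module.finrank F V) (u : Pt Q) :
    ⁅MulAction.stabilizer (commutator (orth Q)) u, MulAction.stabilizer (commutator (orth Q)) u⁆ =
      MulAction.stabilizer (commutator (orth Q)) u := by
  obtain ⟨-, hW, hd⟩ := nondeg_span _ ((orthon_one u).regular h2)
  rw [stabilizer_point, ← Matrix.range_cons_empty u.1 ![]]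
  refine fixSub_perfect hQ hW ?_
  have := finrank_perp_add hQ (Submodule.span F (Set.range ![u.1]))
  omega

theorem pair_perfect' (h7 : 7 ≤ Module.finrank F V) {a b : Pt Q} (hab : polar Q a.1 b.1 = 0) :
    ⁅MulAction.stabilizer (commutator (orth Q)) a ⊓ MulAction.stabilizer (commutator (orth Q)) b,
        MulAction.stabilizer (commutator (orth Q)) a ⊓ MulAction.stabilizer (commutator (orth Q)) b⁆ =
      MulAction.stabilizer (commutator (orth Q)) a ⊓ MulAction.stabilizer (commutator (orth Q)) b := by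
  obtain ⟨-, hW, hd⟩ := nondeg_span _ ((orthon_inf h2 hQ hab).regular h2)
  rw [stabilizer_inf]
  refine fixSub_perfect hQ hW ?_
  have := finrank_perp_add hQ (Submodule.span F (Set.range ![a.1, b.1]))
  omega

theorem step_of_orth' {Γ : Type u} [Group Γ] {σ : Γ →* commutator (orth Q)} (hs : Function.Surjective σ)
    (h7 : 7 ≤ Module.finrank F V) {v₀ v a b : Pt Q} (ha : Aux v₀ v a) (hb : Aux v₀ v b)
    (hab : polar Q a.1 b.1 = 0) : StepA σ v₀ v (Aux v₀) a b := by
  have ho : ∀ x : Pt Q, polar Q x.1 a.1 = 0 → polar Q x.1 b.1 = 0 → Orthon Q ![a.1, b.1, x.1] := by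
    intro x hxa hxb
    refine ⟨fun i => by fin_cases i <;> [exact a.2; exact b.2; exact x.2], fun i j hij => ?_⟩
    fin_cases i <;> fin_cases j <;> first
      | exact absurd rfl hij
      | simp [hab, hxa, hxb, polar_comm (⇑Q) b.1 a.1, polar_comm (⇑Q) a.1 x.1, polar_comm (⇑Q) b.1 x.1]
  obtain ⟨g, hg⟩ := exists_map_orthon h2 hQ (by omega) (by omega) (ho v₀ ha.1 hb.1) (ho v ha.2 hb.2)
  refine stepA_of_mem hs ha hb inf_le_left inf_le_right (g := g) ?_ (Subtype.ext (hg 2))
  rw [pair_perfect' h2 hQ h7 hab]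
  exact ⟨mem_stabilizer_point.2 (hg 0), mem_stabilizer_point.2 (hg 1)⟩

/-- An orthonormal pair can be extended below a given span. -/
theorem exists_perp_point {k : ℕ} (a : Fin k → V) (ha : Orthon Q a) (hk : k + 2 ≤ Module.finrank F V) :
    ∃ y : Pt Q, ∀ i, polar Q (a i) y.1 = 0 := by
  obtain ⟨-, hW, hd⟩ := nondeg_span _ (ha.regular h2)
  obtain ⟨y, hy, hy1⟩ := exists_norm_perp h2 hQ (Submodule.span F (Set.range a)) (by
    rw [hW, finrank_bot]; omega) 1
  exact ⟨⟨y, hy1⟩, fun i => mem_perp.1 hy _ (Submodule.subset_span ⟨i, rfl⟩)⟩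

/-- The kernel lies in the derived preimage of a point stabiliser. -/
theorem ker_le_point_eight (h8 : 8 ≤ Module.finrank F V) {Γ : Type u} [Group Γ]
    {σ : Γ →* commutator (orth Q)} (hs : Function.Surjective σ) (hc : σ.ker ≤ Subgroup.center Γ)
    (hperf : commutator Γ = ⊤) (v₀ : Pt Q) :
    σ.ker ≤ dpre σ (MulAction.stabilizer (commutator (orth Q)) v₀) := by
  have htrans : ∀ v : Pt Q, ∃ g : commutator (orth Q), g • v₀ = v := fun v => by
    obtain ⟨g, hg⟩ := exists_map_orthon h2 hQ (by omega) (k := 1) (by omega) (orthon_one v₀) (orthon_one v)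
    exact ⟨g, Subtype.ext (hg 0)⟩
  have hpp := fun {a b : Pt Q} (hab : polar Q a.1 b.1 = 0) => pair_perfect' h2 hQ (by omega) hab
  have hne : ∀ v, ∃ u, Aux v₀ v u := fun v => by
    set S := Submodule.span F (Set.range ![v₀.1, v.1])
    obtain ⟨-, hP, hPd⟩ := nondeg_span _ ((orthon_one v₀).regular h2)
    have := rad_le (Q := Q) (show Submodule.span F (Set.range ![v₀.1]) ≤ S from Submodule.span_le.2 (by
      rintro z ⟨i, rfl⟩; fin_cases i; exact Submodule.subset_span ⟨0, rfl⟩)) hP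
    have hs2 : Module.finrank F S ≤ 2 := finrank_span_range_le _
    obtain ⟨y, hy, hy1⟩ := exists_norm_perp h2 hQ S (by
      change Module.finrank F S + Module.finrank F ↥(S ⊓ perp Q S) + 2 ≤ Module.finrank F V
      omega) 1
    exact ⟨⟨y, hy1⟩, mem_perp.1 hy _ (Submodule.subset_span ⟨0, rfl⟩), mem_perp.1 hy _ (Submodule.subset_span ⟨1, rfl⟩)⟩
  have haux : ∀ {a b : Pt Q}, polar Q a.1 b.1 = 0 → polar Q b.1 a.1 = 0 := fun {a b} h => by
    rwa [polar_comm]
  -- the moving element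
  obtain ⟨w₁, h01⟩ := exists_perp_point h2 hQ _ (orthon_one v₀) (by omega)
  have h01' : polar Q v₀.1 w₁.1 = 0 := h01 0
  obtain ⟨w₂, h2'⟩ := exists_perp_point h2 hQ _ (orthon_inf h2 hQ h01') (by omega)
  have h02 : polar Q v₀.1 w₂.1 = 0 := h2' 0
  have h12 : polar Q w₁.1 w₂.1 = 0 := h2' 1
  have o3 : Orthon Q ![v₀.1, w₁.1, w₂.1] := by
    refine ⟨fun i => by fin_cases i <;> [exact v₀.2; exact w₁.2; exact w₂.2], fun i j hij => ?_⟩
    fin_cases i <;> fin_cases j <;> first
      | exact absurd rfl hij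
      | simp [h01', h02, h12, polar_comm (⇑Q) w₁.1 v₀.1, polar_comm (⇑Q) w₂.1 v₀.1, polar_comm (⇑Q) w₂.1 w₁.1]
  obtain ⟨us, hu3⟩ := exists_perp_point h2 hQ _ o3 (by omega)
  have o4 : Orthon Q ![v₀.1, w₁.1, w₂.1, us.1] := by
    have a0 : polar Q v₀.1 us.1 = 0 := hu3 0
    have a1 : polar Q w₁.1 us.1 = 0 := hu3 1
    have a2 : polar Q w₂.1 us.1 = 0 := hu3 2
    refine ⟨fun i => by fin_cases i <;> [exact v₀.2; exact w₁.2; exact w₂.2; exact us.2], fun i j hij => ?_⟩
    fin_cases i <;> fin_cases j <;> first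
      | exact absurd rfl hij
      | simp [h01', h02, h12, a0, a1, a2, polar_comm (⇑Q) w₁.1 v₀.1, polar_comm (⇑Q) w₂.1 v₀.1,
          polar_comm (⇑Q) w₂.1 w₁.1, polar_comm (⇑Q) us.1 v₀.1, polar_comm (⇑Q) us.1 w₁.1,
          polar_comm (⇑Q) us.1 w₂.1]
  set c := v₀.1 - w₁.1 with hcdef
  set d := w₁.1 - w₂.1 with hddef
  have hqc : Q c = 2 := by
    rw [hcdef, sub_eq_add_neg, QuadraticMap.map_add (⇑Q), QuadraticMap.map_neg, polar_neg_right, v₀.2, w₁.2, h01']; ring
  have hqd : Q d = 2 := by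
    rw [hddef, sub_eq_add_neg, QuadraticMap.map_add (⇑Q), QuadraticMap.map_neg, polar_neg_right, w₁.2, w₂.2, h12]; ring
  have hmem : refl Q c * refl Q d ∈ commutator (orth Q) := by
    have := (list_prod_mem_commutator_iff hQ (Or.inr (by omega)) (vs := [c, d])
      (by intro x hx; simp at hx; rcases hx with rfl | rfl <;> simp [hqc, hqd, h2])).2
      ⟨⟨1, rfl⟩, ⟨2, by simp [hqc, hqd]⟩⟩
    simpa using this
  set x : commutator (orth Q) := ⟨_, hmem⟩ with hxdef
  have hfix : ∀ y : V, polar Q v₀.1 y = 0 → polar Q w₁.1 y = 0 → polar Q w₂.1 y = 0 →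
      ((x : orth Q) : V ≃ₗ[F] V) y = y := fun y e0 e1 e2 => by
    have k1 : ((refl Q d : orth Q) : V ≃ₗ[F] V) y = y :=
      refl_apply_of_ortho (by rw [hddef, polar_sub_left, e1, e2, sub_zero])
    have k2 : ((refl Q c : orth Q) : V ≃ₗ[F] V) y = y :=
      refl_apply_of_ortho (by rw [hcdef, polar_sub_left, e0, e1, sub_zero])
    show ((refl Q c * refl Q d : orth Q) : V ≃ₗ[F] V) y = y
    rw [orth_mul_apply, k1, k2]
  have hxv : x • v₀ = w₁ := by
    have k1 : ((refl Q d : orth Q) : V ≃ₗ[F] V) v₀.1 = v₀.1 :=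
      refl_apply_of_ortho (by
        rw [hddef, polar_sub_left, polar_comm (⇑Q) w₁.1 v₀.1, polar_comm (⇑Q) w₂.1 v₀.1, h01', h02, sub_zero])
    refine Subtype.ext ?_
    show ((refl Q c * refl Q d : orth Q) : V ≃ₗ[F] V) v₀.1 = w₁.1
    rw [orth_mul_apply, k1, refl_apply, hqc, hcdef, polar_sub_left, polar_self', v₀.2, polar_comm (⇑Q) w₁.1 v₀.1,
      h01', sub_zero, mul_one, inv_mul_cancel₀ h2, one_smul, sub_sub_cancel]
  have hxu : x ∈ MulAction.stabilizer (commutator (orth Q)) us :=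
    mem_stabilizer_point.2 (hfix _ (hu3 0) (hu3 1) (hu3 2))
  refine ker_le_dpre_of_agree hs hc hperf v₀ (Aux v₀) htrans hne (fun v u hu => ?_) (fun v u hu g hg => ?_)
    (fun v a b ha hb => ?_) (fun h hh v u hu => ?_) {x} ?_ ?_ (point_perfect' h2 hQ (by omega) v₀)
  · obtain ⟨g, hg⟩ := exists_map_orthon h2 hQ (by omega) (k := 2) (by omega)
      (orthon_inf h2 hQ (a := u) (b := v₀) (haux hu.1)) (orthon_inf h2 hQ (a := u) (b := v) (haux hu.2))
    exact ⟨g, by rw [point_perfect' h2 hQ (by omega)]; exact mem_stabilizer_point.2 (hg 0), Subtype.ext (hg 1)⟩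
  · rw [← hpp (haux hu.1)] at hg
    obtain ⟨y, hy, e⟩ := exists_mem_dpre hs hg
    exact ⟨y, dpre_mono inf_le_left hy, e, dpre_mono inf_le_right hy⟩
  · set S := Submodule.span F (Set.range ![v₀.1, v.1, a.1, b.1]) with hS
    have hs4 : Module.finrank F S ≤ 4 := finrank_span_range_le _
    obtain ⟨-, hP, hPd⟩ := nondeg_span _ ((orthon_inf h2 hQ ha.1).regular h2)
    have hr := rad_le (show Submodule.span F (Set.range ![v₀.1, a.1]) ≤ S from Submodule.span_le.2 (by
      rintro z ⟨i, rfl⟩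
      fin_cases i
      · exact Submodule.subset_span ⟨0, rfl⟩
      · exact Submodule.subset_span ⟨2, rfl⟩)) hP
    obtain ⟨y, hy, hy1⟩ := exists_norm_perp h2 hQ S (by omega) 1
    have hp : ∀ i, polar Q (![v₀.1, v.1, a.1, b.1] i) y = 0 := fun i =>
      mem_perp.1 hy _ (Submodule.subset_span ⟨i, rfl⟩)
    have hz : Aux v₀ v (⟨y, hy1⟩ : Pt Q) := ⟨hp 0, hp 1⟩
    exact .trans _ ⟨y, hy1⟩ _ (.rel _ _ (step_of_orth' h2 hQ hs (by omega) ha hz (show polar Q a.1 y = 0 from hp 2)))
      (.symm _ _ (.rel _ _ (step_of_orth' h2 hQ hs (by omega) hb hz (show polar Q b.1 y = 0 from hp 3))))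
  · constructor
    · show polar Q v₀.1 (((h : orth Q) : V ≃ₗ[F] V) u.1) = 0
      conv_lhs => rw [← mem_stabilizer_point.1 (MulAction.mem_stabilizer_iff.2 hh)]
      rw [orth_polar]; exact hu.1
    · show polar Q (((h : orth Q) : V ≃ₗ[F] V) v.1) (((h : orth Q) : V ≃ₗ[F] V) u.1) = 0
      rw [orth_polar]; exact hu.2
  · refine eq_top_of_stab_of_edge (R := fun p q : Pt Q => polar Q p.1 q.1 = 0) _
      (fun g hg => Subgroup.subset_closure (Or.inr hg)) (x := x) (Subgroup.subset_closure (Or.inl rfl))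
      (by rw [hxv]; exact h01') (fun g p q h => ?_) (fun p q hp hq => ?_) (fun v => ?_)
    · show polar Q (((g : orth Q) : V ≃ₗ[F] V) p.1) (((g : orth Q) : V ≃ₗ[F] V) q.1) = 0
      rw [orth_polar]; exact h
    · obtain ⟨g, hg⟩ := exists_map_orthon h2 hQ (by omega) (k := 2) (by omega) (orthon_inf h2 hQ hp)
        (orthon_inf h2 hQ hq)
      exact ⟨g, mem_stabilizer_point.2 (hg 0), Subtype.ext (hg 1)⟩
    · obtain ⟨u, hu⟩ := hne v
      exact ⟨u, hu.1, haux hu.2⟩
  · rintro _ rfl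
    have hxu' := hxu
    rw [← point_perfect' h2 hQ (by omega) us] at hxu'
    obtain ⟨y, hy, ey⟩ := exists_mem_dpre hs hxu'
    refine ⟨y, ey, fun v => ?_⟩
    obtain ⟨-, hP, hPd⟩ := nondeg_span _ (o4.regular h2)
    set P := Submodule.span F (Set.range ![v₀.1, w₁.1, w₂.1, us.1]) with hPdef
    have hr := rad_le (show P ≤ P ⊔ Submodule.span F {v.1} from le_sup_left) hP
    have h5 := finrank_sup_span_singleton_le P v.1
    obtain ⟨z, hz, hz1⟩ := exists_norm_perp h2 hQ (P ⊔ Submodule.span F {v.1}) (by omega) 1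
    rw [perp_sup, Submodule.mem_inf, mem_perp_span] at hz
    have hzP : ∀ i, polar Q (![v₀.1, w₁.1, w₂.1, us.1] i) z = 0 := fun i =>
      mem_perp.1 hz.1 _ (Submodule.subset_span ⟨i, rfl⟩)
    have hxz : ((x : orth Q) : V ≃ₗ[F] V) z = z := hfix _ (hzP 0) (hzP 1) (hzP 2)
    obtain ⟨zp, hzp⟩ : ∃ zp : Pt Q, zp.1 = z := ⟨⟨z, hz1⟩, rfl⟩
    subst hzp
    refine ⟨zp, ⟨hzP 0, hz.2⟩, ⟨hzP 0, ?_⟩, ?_⟩
    · show polar Q (((x : orth Q) : V ≃ₗ[F] V) v.1) zp.1 = 0
      conv_lhs => rw [← hxz]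
      rw [orth_polar]; exact hz.2
    · have hxp : x ∈ MulAction.stabilizer (commutator (orth Q)) us ⊓
          MulAction.stabilizer (commutator (orth Q)) zp := ⟨hxu, mem_stabilizer_point.2 hxz⟩
      rw [← hpp (show polar Q us.1 zp.1 = 0 from hzP 3)] at hxp
      obtain ⟨l, hl, el⟩ := exists_mem_dpre hs hxp
      exact ⟨l, dpre_mono inf_le_right hl, el,
        lift_congr_of_trans hs hc (htrans us) hy (dpre_mono inf_le_left hl) (ey.trans el.symm)⟩

end Cfsg.Agent.H82.Orth
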