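import Cfsg.Agent.H82.Orth.EvenBase
import Cfsg.Agent.H82.Sp.Stab
import Cfsg.Agent.H4.POmegaOrder

/-!
# A point stabiliser of Omega of minus type in characteristic two is symplectic
-/

set_option autoImplicit false
set_option linter.unusedSectionVars false
set_option linter.unusedSimpArgs false

open QuadraticMap hiding sq
open scoped commutatorElement Matrix

namespace Cfsg.Agent.H82.Orth

open Cfsg.Agent.H5 Cfsg.Agent.H82.Sp

universe u

variable {F : Type u} [Field F] {m : ℕ} {a b : F}

/-- The coordinate space of minus type. -/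
scoped notation "MSp " m:max F:max => ((Fin m ⊕ Fin m) ⊕ Fin 2 → F)

/-- The hyperbolic coordinates of a vector. -/
def mpr (y : MSp m F) : Vec m F := fun j => y (.inl j)

/-- A vector with given hyperbolic coordinates. -/
def miota (x : Vec m F) : MSp m F := Sum.elim x 0

/-- The base point. -/
def mv₀ (m : ℕ) (a b : F) : Pt (qMinus m F a b) :=
  ⟨Pi.single (.inr 0) 1, by simp [coe_qMinus, Cfsg.quadFormMinus, Pi.single_apply]⟩

theorem polar_mv₀ (y : MSp m F) :
    polar (qMinus m F a b) (mv₀ m a b).1 y = 2 * y (.inr 0) + a * y (.inr 1) := by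
  rw [show (mv₀ m a b).1 = Pi.single (.inr 0) 1 from rfl, polar_qMinus]
  simp [Pi.single_apply]

variable [Fintype F]

theorem ne_zero_left_of_two (h2 : (2 : F) = 0)
    (hab : ∀ z₁ z₂ : F, z₁ ^ 2 + a * z₁ * z₂ + b * z₂ ^ 2 = 0 → z₁ = 0 ∧ z₂ = 0) : a ≠ 0 := fun h => by
  refine four_mul_sub_ne_zero hab ?_
  rw [h]
  linear_combination 2 * b * h2

theorem ne_zero_right_of_anisotropic
    (hab : ∀ z₁ z₂ : F, z₁ ^ 2 + a * z₁ * z₂ + b * z₂ ^ 2 = 0 → z₁ = 0 ∧ z₂ = 0) : b ≠ 0 := fun h =>
  one_ne_zero (hab 0 1 (by rw [h]; ring)).2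

variable (h2 : (2 : F) = 0) (hab : ∀ z₁ z₂ : F, z₁ ^ 2 + a * z₁ * z₂ + b * z₂ ^ 2 = 0 → z₁ = 0 ∧ z₂ = 0)

include h2 hab

theorem mperp_decomp {y : MSp m F} (h : polar (qMinus m F a b) (mv₀ m a b).1 y = 0) :
    y = miota (mpr y) + y (.inr 0) • (mv₀ m a b).1 := by
  rw [polar_mv₀, h2, zero_mul, zero_add, mul_eq_zero, or_iff_right (ne_zero_left_of_two h2 hab)] at h
  funext k
  rcases k with j | j
  · simp [miota, mpr, mv₀]
  · fin_cases j
    · simp [miota, mpr, mv₀]
    · simp [miota, mpr, mv₀]; exact h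

omit hab in
theorem polar_miota_mv₀ (x : Vec m F) : polar (qMinus m F a b) (mv₀ m a b).1 (miota x) = 0 := by
  simp [polar_mv₀, miota]

omit hab in
theorem polar_miota (x z : Vec m F) : polar (qMinus m F a b) (miota x) (miota z) = B x z := by
  rw [polar_qMinus, B_eq, H2.sympForm_apply]
  simp only [miota, Sum.elim_inl, Sum.elim_inr, Pi.zero_apply, mul_zero, zero_mul, add_zero]
  refine Finset.sum_congr rfl fun i _ => ?_
  linear_combination (z (.inr i) * x (.inl i)) * h2

/-- The value of the form on the perp of the base point. -/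
theorem polar_of_perp {y z : MSp m F} (hy : polar (qMinus m F a b) (mv₀ m a b).1 y = 0)
    (hz : polar (qMinus m F a b) (mv₀ m a b).1 z = 0) : polar (qMinus m F a b) y z = B (mpr y) (mpr z) := by
  conv_lhs => rw [mperp_decomp h2 hab hy, mperp_decomp h2 hab hz]
  rw [polar_add_left, polar_add_right, polar_add_right, polar_miota h2, polar_smul_right, polar_smul_left,
    polar_smul_left, polar_smul_right, polar_comm (⇑(qMinus m F a b)) (miota (mpr y)) (mv₀ m a b).1,
    polar_miota_mv₀ h2, polar_miota_mv₀ h2, polar_self_two h2]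
  simp

omit hab in
theorem perp_apply {g : commutator (orth (qMinus m F a b))}
    (hg : g ∈ MulAction.stabilizer (commutator (orth (qMinus m F a b))) (mv₀ m a b)) {y : MSp m F}
    (hy : polar (qMinus m F a b) (mv₀ m a b).1 y = 0) :
    polar (qMinus m F a b) (mv₀ m a b).1 (((g : orth (qMinus m F a b)) : MSp m F ≃ₗ[F] MSp m F) y) = 0 := by
  conv_lhs => rw [← mem_stabilizer_point.1 hg]
  rw [orth_polar]; exact hy

/-- The linear map induced on the hyperbolic coordinates. -/
def spLin (g : orth (qMinus m F a b)) : Vec m F →ₗ[F] Vec m F where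
  toFun x := mpr ((g : MSp m F ≃ₗ[F] MSp m F) (miota x))
  map_add' x z := by
    rw [show miota (x + z) = miota x + miota z by funext k; rcases k with j | j <;> simp [miota], map_add]
    rfl
  map_smul' c x := by
    rw [show miota (c • x) = c • miota x by funext k; rcases k with j | j <;> simp [miota], map_smul]
    rfl

theorem mpr_apply {g : commutator (orth (qMinus m F a b))}
    (hg : g ∈ MulAction.stabilizer (commutator (orth (qMinus m F a b))) (mv₀ m a b)) {y : MSp m F}
    (hy : polar (qMinus m F a b) (mv₀ m a b).1 y = 0) :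
    spLin (g : orth (qMinus m F a b)) (mpr y) =
      mpr (((g : orth (qMinus m F a b)) : MSp m F ≃ₗ[F] MSp m F) y) := by
  conv_rhs => rw [mperp_decomp h2 hab hy, map_add, map_smul, mem_stabilizer_point.1 hg]
  funext j
  simp [spLin, mpr, mv₀]

/-- The matrix on the hyperbolic coordinates is symplectic. -/
noncomputable def spHom : MulAction.stabilizer (commutator (orth (qMinus m F a b))) (mv₀ m a b) →* Grp m F where
  toFun g := ⟨LinearMap.toMatrix' (spLin ((g : commutator (orth (qMinus m F a b))) : orth (qMinus m F a b))),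
    H2.mem_symplecticGroup_iff.2 fun x z => by
      rw [LinearMap.toMatrix'_mulVec, LinearMap.toMatrix'_mulVec, ← B_eq, ← B_eq, ← polar_miota h2 (a := a) (b := b),
        ← polar_miota h2 (a := a) (b := b) x z]
      conv_rhs => rw [← orth_polar ((g : commutator (orth (qMinus m F a b))) : orth (qMinus m F a b))]
      rw [polar_of_perp h2 hab (perp_apply h2 g.2 (polar_miota_mv₀ h2 x))
        (perp_apply h2 g.2 (polar_miota_mv₀ h2 z)), polar_miota h2]
      rfl⟩
  map_one' := Subtype.ext (by
    show LinearMap.toMatrix' _ = 1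
    rw [← LinearMap.toMatrix'_id]
    refine congrArg _ (LinearMap.ext fun x => funext fun j => ?_)
    simp [spLin, mpr, miota])
  map_mul' g k := Subtype.ext (by
    show LinearMap.toMatrix' _ = LinearMap.toMatrix' _ * LinearMap.toMatrix' _
    rw [← LinearMap.toMatrix'_comp]
    refine congrArg _ (LinearMap.ext fun x => ?_)
    exact (mpr_apply h2 hab g.2 (perp_apply h2 k.2 (polar_miota_mv₀ h2 x))).symm)

theorem act_spHom (g : MulAction.stabilizer (commutator (orth (qMinus m F a b))) (mv₀ m a b)) {y : MSp m F}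
    (hy : polar (qMinus m F a b) (mv₀ m a b).1 y = 0) :
    act (spHom h2 hab g) (mpr y) =
      mpr ((((g : commutator (orth (qMinus m F a b))) : orth (qMinus m F a b)) : MSp m F ≃ₗ[F] MSp m F) y) := by
  rw [← mpr_apply h2 hab g.2 hy]
  exact LinearMap.toMatrix'_mulVec _ _

theorem spHom_surjective (hm : 2 ≤ m) : Function.Surjective (spHom (m := m) h2 hab) := by
  classical
  haveI : Finite (MSp m F) := Pi.finite
  have hQ := H5.qMinus_nondegenerate (F := F) m hab
  rw [← MonoidHom.range_eq_top, eq_top_iff, ← H2.closure_transv_eq_top, Subgroup.closure_le]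
  rintro _ ⟨v, c, rfl⟩
  obtain ⟨r, hr⟩ := isSquare_of_two_eq_zero h2 c
  rw [hr, show r * r = r * r * 1 by rw [mul_one], ← H2.transv_smul]
  set w := r • v
  obtain ⟨t, ht⟩ := isSquare_of_two_eq_zero h2 (1 + qMinus m F a b (miota w))
  set W := miota w + t • (mv₀ m a b).1 with hW
  have hW1 : qMinus m F a b W = 1 := by
    rw [hW, QuadraticMap.map_add (⇑(qMinus m F a b)), QuadraticMap.map_smul, (mv₀ m a b).2, polar_smul_right,
      polar_comm (⇑(qMinus m F a b)) (miota w), polar_miota_mv₀ h2, smul_zero, smul_eq_mul, mul_one, ← ht, add_zero]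
    linear_combination qMinus m F a b (miota w) * h2
  have hWv : polar (qMinus m F a b) (mv₀ m a b).1 W = 0 := by
    rw [hW, polar_add_right, polar_miota_mv₀ h2, polar_smul_right, polar_self_two h2, smul_zero, add_zero]
  have hn : Module.finrank F (MSp m F) = 2 * m + 2 := by simp; omega
  have hmem : refl (qMinus m F a b) (mv₀ m a b).1 * refl (qMinus m F a b) W ∈
      commutator (orth (qMinus m F a b)) := by
    have := (list_prod_mem_commutator_iff hQ (Or.inr (by omega)) (vs := [(mv₀ m a b).1, W])
      (by intro x hx; simp at hx; rcases hx with rfl | rfl <;> simp [(mv₀ m a b).2, hW1])).2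
      ⟨⟨1, rfl⟩, isSquare_of_two_eq_zero h2 _⟩
    simpa using this
  have hfix : ((refl (qMinus m F a b) (mv₀ m a b).1 * refl (qMinus m F a b) W : orth (qMinus m F a b)) :
      MSp m F ≃ₗ[F] MSp m F) (mv₀ m a b).1 = (mv₀ m a b).1 := by
    rw [orth_mul_apply, refl_apply_of_ortho (v := W) (x := (mv₀ m a b).1) (by rw [polar_comm]; exact hWv),
      refl_apply_self (by rw [(mv₀ m a b).2]; exact one_ne_zero)]
    exact neg_eq_of_add_eq_zero_left (add_self_two h2 _)
  refine ⟨⟨⟨_, hmem⟩, mem_stabilizer_point.2 hfix⟩, grp_ext fun x => ?_⟩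
  conv_lhs => rw [show x = mpr (miota (F := F) x) from rfl, act_spHom h2 hab _ (polar_miota_mv₀ h2 x)]
  have hWx : polar (qMinus m F a b) W (miota x) = B x w := by
    rw [polar_comm, polar_of_perp h2 hab (polar_miota_mv₀ h2 x) hWv]
    congr 1
    funext j
    simp [hW, mpr, miota, mv₀]
  rw [act_transv, orth_mul_apply, refl_apply, refl_apply, hW1, (mv₀ m a b).2, hWx, inv_one, one_mul, one_mul]
  funext j
  simp [mpr, miota, mv₀, hW, sub_eq_add_neg]
  linear_combination (-(B x w) * w j) * h2

theorem spHom_injective (hm : 2 ≤ m) : Function.Injective (spHom (m := m) h2 hab) := by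
  classical
  haveI : Finite (MSp m F) := Pi.finite
  have hQ := H5.qMinus_nondegenerate (F := F) m hab
  have hn : Module.finrank F (MSp m F) = 2 * m + 2 := by simp; omega
  refine (injective_iff_map_eq_one _).2 fun g hg => ?_
  obtain ⟨⟨g, hgm⟩, hgv⟩ := g
  have hfix0 := mem_stabilizer_point.1 hgv
  have hperp : ∀ y, polar (qMinus m F a b) (mv₀ m a b).1 y = 0 → (g : MSp m F ≃ₗ[F] MSp m F) y = y := by
    intro y hy
    have h1 := act_spHom h2 hab ⟨⟨g, hgm⟩, hgv⟩ hy
    rw [hg, act_one] at h1
    have e1 := mperp_decomp h2 hab (perp_apply h2 hgv hy)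
    rw [← h1] at e1
    have h : qMinus m F a b ((g : MSp m F ≃ₗ[F] MSp m F) y) = qMinus m F a b y := orth_map g y
    have hq : ∀ t : F, qMinus m F a b (miota (mpr y) + t • (mv₀ m a b).1) =
        qMinus m F a b (miota (mpr y)) + t * t := fun t => by
      rw [QuadraticMap.map_add (⇑(qMinus m F a b)), QuadraticMap.map_smul, (mv₀ m a b).2, polar_smul_right,
        polar_comm (⇑(qMinus m F a b)) (miota (mpr y)), polar_miota_mv₀ h2, smul_zero, smul_eq_mul, mul_one, add_zero]
    rw [e1] at h
    conv_rhs at h => rw [mperp_decomp h2 hab hy]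
    rw [hq, hq, add_right_inj] at h
    rw [e1, sqrt_unique_two h2 h, ← mperp_decomp h2 hab hy]
  set z : MSp m F := Pi.single (.inr 1) 1 with hz
  set w := (g : MSp m F ≃ₗ[F] MSp m F) z + z with hw
  have hgz : (g : MSp m F ≃ₗ[F] MSp m F) z = z + w := by
    rw [hw, add_left_comm, add_self_two h2, add_zero]
  have hwp : ∀ y, polar (qMinus m F a b) (mv₀ m a b).1 y = 0 → polar (qMinus m F a b) y w = 0 := fun y hy => by
    have h := orth_polar g y z
    rw [hperp y hy, hgz, polar_add_right] at h
    exact add_left_cancel (h.trans (add_zero _).symm)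
  obtain ⟨k, hk⟩ : ∃ k : F, k • (mv₀ m a b).1 = w := by
    refine Submodule.mem_span_singleton.1 ((perp_perp hQ _).le (mem_perp.2 fun y hy => hwp y ?_))
    exact mem_perp_span.1 hy
  have hzv : polar (qMinus m F a b) (mv₀ m a b).1 z = a := by rw [polar_mv₀]; simp [hz]
  have hkk : k * (k + a) = 0 := by
    have h := orth_map g z
    rw [hgz, ← hk, QuadraticMap.map_add (⇑(qMinus m F a b)), QuadraticMap.map_smul, (mv₀ m a b).2,
      polar_smul_right, polar_comm (⇑(qMinus m F a b)) z, hzv, smul_eq_mul, smul_eq_mul, mul_one, add_assoc] at h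
    linear_combination add_left_cancel (h.trans (add_zero _).symm)
  have hdec : ∀ y, y = (y - (a⁻¹ * polar (qMinus m F a b) (mv₀ m a b).1 y) • z) +
      (a⁻¹ * polar (qMinus m F a b) (mv₀ m a b).1 y) • z := fun y => (sub_add_cancel _ _).symm
  have hsub : ∀ y, polar (qMinus m F a b) (mv₀ m a b).1
      (y - (a⁻¹ * polar (qMinus m F a b) (mv₀ m a b).1 y) • z) = 0 := fun y => by
    rw [polar_sub_right, polar_smul_right, hzv, smul_eq_mul]
    field_simp [ne_zero_left_of_two h2 hab]
    ring
  rcases mul_eq_zero.1 hkk with h | h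
  · refine Subtype.ext (Subtype.ext (orth_ext fun y => ?_))
    show (g : MSp m F ≃ₗ[F] MSp m F) y = y
    rw [hdec y, map_add, map_smul, hperp _ (hsub y), hgz, ← hk, h, zero_smul, add_zero]
  · exfalso
    have hka : k = a := by linear_combination h - a * h2
    have hr : g = refl (qMinus m F a b) (mv₀ m a b).1 := by
      refine orth_ext fun y => ?_
      rw [hdec y, map_add, map_add, map_smul, map_smul, hperp _ (hsub y), refl_apply_of_ortho (hsub y), hgz,
        refl_apply, (mv₀ m a b).2, hzv, inv_one, one_mul, ← hk, hka]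
      congr 2
      rw [eq_sub_iff_add_eq, add_assoc, add_self_two h2, add_zero]
    have hd := ((mem_commutator_iff hQ (Or.inr (by omega))).1 hgm).1
    rw [hr, dick_refl hQ (by rw [(mv₀ m a b).2]; exact one_ne_zero)] at hd
    exact absurd hd (by decide)

/-- The stabiliser of the base point is the symplectic group. -/
noncomputable def spEquiv (hm : 2 ≤ m) :
    MulAction.stabilizer (commutator (orth (qMinus m F a b))) (mv₀ m a b) ≃* Grp m F :=
  MulEquiv.ofBijective (spHom h2 hab) ⟨spHom_injective h2 hab hm, spHom_surjective h2 hab hm⟩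

theorem spEquiv_apply (hm : 2 ≤ m) (g) : spEquiv (a := a) (b := b) h2 hab hm g = spHom h2 hab g := rfl

end Cfsg.Agent.H82.Orth
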